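import Cfsg.Agent.TwoClassCover.Basic
import Cfsg.Agent.G2Oct.NormForm

/-!
`G₂(2^a)` is covered by the conjugates of the stabilisers of two pairs `{w, w + 1}` of trace one.
-/

set_option autoImplicit false
set_option linter.style.haveILetI false

namespace CfsgLib.TwoClassCover

open Matrix Cfsg.Lie CfsgLib.G2Oct

variable {F : Type*} [Field F]

/-- The stabiliser of the pair `{w, w + 1}`. -/
def pairSub [CharP F 2] (w : Fin 8 → F) : Subgroup ↥(G2 F) where
  carrier := {g | g2Mat g *ᵥ w = w ∨ g2Mat g *ᵥ w = w + octOne F}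
  one_mem' := Or.inl (by rw [g2Mat_one, Matrix.one_mulVec])
  mul_mem' := by
    rintro g h hg hh
    show g2Mat (g * h) *ᵥ w = w ∨ _
    rw [g2Mat_mul, ← Matrix.mulVec_mulVec]
    rcases hg with hg | hg <;> rcases hh with hh | hh <;>
      simp [hg, hh, Matrix.mulVec_add, g2Mat_octOne, add_assoc, CharTwo.add_self_eq_zero]
  inv_mem' := by
    rintro g hg
    show g2Mat g⁻¹ *ᵥ w = w ∨ g2Mat g⁻¹ *ᵥ w = w + octOne F
    rcases hg with hg | hg
    · exact Or.inl (g2Mat_inj g (by rw [Matrix.mulVec_mulVec, g2Mat_mul_inv, Matrix.one_mulVec, hg]))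
    · refine Or.inr (g2Mat_inj g ?_)
      rw [Matrix.mulVec_mulVec, g2Mat_mul_inv, Matrix.one_mulVec, Matrix.mulVec_add, hg,
        g2Mat_octOne, add_assoc,
        show octOne F + octOne F = 0 from funext fun i => CharTwo.add_self_eq_zero _, add_zero]

theorem oTr_eq (x : Fin 8 → F) : oTr x = polarB F (octOne F) x := by
  simp [oTr, polarB, octOne, zMk]; ring

/-- Some element of trace one is fixed modulo the unit. -/
theorem exists_fixed_pair [CharP F 2] (g : ↥(G2 F)) :
    ∃ x, oTr x = 1 ∧ (g2Mat g *ᵥ x = x ∨ g2Mat g *ᵥ x = x + octOne F) := by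
  let B := polarB F
  let U := Submodule.span F {octOne F}
  let D : (Fin 8 → F) →ₗ[F] (Fin 8 → F) ⧸ U := U.mkQ ∘ₗ (Matrix.toLin' (g2Mat g) - LinearMap.id)
  have key : ∃ x ∈ LinearMap.ker D, B (octOne F) x ≠ 0 := by
    by_contra! hcon
    obtain ⟨μ, hμ⟩ : ∃ μ : Module.Dual F ((Fin 8 → F) ⧸ U), μ ∘ₗ D = B (octOne F) := by
      have : B (octOne F) ∈ (LinearMap.ker D).dualAnnihilator :=
        (Submodule.mem_dualAnnihilator _).2 hcon
      rw [← LinearMap.range_dualMap_eq_dualAnnihilator_ker] at this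
      exact this
    have hBinj : Function.Injective (B : (Fin 8 → F) →ₗ[F] _) :=
      (injective_iff_map_eq_zero B).2 fun x hx => polarB_nondeg fun y => by rw [hx]; rfl
    obtain ⟨w, hw⟩ := (LinearMap.injective_iff_surjective_of_finrank_eq_finrank
      (Subspace.dual_finrank_eq.symm)).1 hBinj (μ ∘ₗ U.mkQ)
    have hw1 : B w (octOne F) = 0 := by
      have h := LinearMap.congr_fun hw (octOne F)
      rw [h, LinearMap.comp_apply, Submodule.mkQ_apply,
        (Submodule.Quotient.mk_eq_zero U).2 (Submodule.mem_span_singleton_self _), map_zero]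
    have hw2 : ∀ x, B w (g2Mat g *ᵥ x) - B w x = B (octOne F) x := fun x => by
      rw [← map_sub, ← hμ, hw]
      simp [D]
    have hw3 : g2Mat g⁻¹ *ᵥ w = w + octOne F := by
      refine sub_eq_zero.1 (polarB_nondeg fun y => ?_)
      have h1 := hw2 y
      have h2 := polarB_g2Mat g⁻¹ w (g2Mat g *ᵥ y)
      rw [Matrix.mulVec_mulVec, g2Mat_inv_mul, Matrix.one_mulVec] at h2
      rw [map_sub, map_add, LinearMap.sub_apply, LinearMap.add_apply, h2]
      linear_combination h1
    have h4 := oNorm_g2Mat g⁻¹ w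
    rw [hw3] at h4
    have h5 := polarB_eq w (octOne F)
    rw [h4, hw1, show oNorm (octOne F) = 1 by simp [oNorm, octOne, zMk]] at h5
    exact one_ne_zero (show (1 : F) = 0 by linear_combination h5)
  obtain ⟨x, hx, hx1⟩ := key
  obtain ⟨c, hc⟩ := Submodule.mem_span_singleton.1
    ((Submodule.Quotient.mk_eq_zero U).1 (show Submodule.Quotient.mk _ = 0 from hx))
  simp only [LinearMap.sub_apply, Matrix.toLin'_apply, LinearMap.id_coe, id_eq] at hc
  set y := (B (octOne F) x)⁻¹ • x with hy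
  have hy1 : oTr y = 1 := by
    rw [oTr_eq, hy, map_smul, smul_eq_mul]; exact inv_mul_cancel₀ hx1
  set d := (B (octOne F) x)⁻¹ * c with hd
  have hgy : g2Mat g *ᵥ y = y + d • octOne F := by
    rw [hy, hd, Matrix.mulVec_smul, show g2Mat g *ᵥ x = x + c • octOne F by rw [hc]; abel,
      smul_add, smul_smul]
  have h6 := oNorm_g2Mat g y
  rw [hgy] at h6
  have h7 := polarB_eq y (d • octOne F)
  rw [h6, oNorm_smul_one, map_smul, smul_eq_mul,
    show polarB F y (octOne F) = 1 by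
      rw [← hy1]; simp [oTr, polarB, octOne, zMk]] at h7
  rcases mul_eq_zero.1 (show d * (d + 1) = 0 by linear_combination h7) with h | h
  · exact ⟨y, hy1, Or.inl (by rw [hgy, h, zero_smul, add_zero])⟩
  · exact ⟨y, hy1, Or.inr (by rw [hgy, CharTwo.add_eq_zero.1 h, one_smul])⟩

theorem reach_norm {x y : Fin 8 → F} (h : Reach x y) : oNorm y = oNorm x := by
  obtain ⟨g, -, rfl⟩ := h
  exact oNorm_g2Mat g x

/-- The representative of trace one and norm `ν`. -/
def reprW (ν : F) : Fin 8 → F := zMk 0 ![0, 1, 0] ![0, ν, 0] 1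

theorem reach_reprW [CharP F 2] {ν : F} (hν : ∀ t, t + t ^ 2 ≠ ν) {x : Fin 8 → F}
    (ht : oTr x = 1) (hn : oNorm x = ν) : Reach x (reprW ν) := by
  obtain ⟨α, a, b, β, rfl⟩ : ∃ α a b β, x = zMk α a b β :=
    ⟨x 0, zA F x, zB F x, x 7, (zMk_parts x).symm⟩
  have hab : α + β = 1 := by simpa [oTr, zMk] using ht
  have ha : a ≠ 0 := by
    rintro rfl
    have h2 : α * β = ν := by simpa [oNorm, zMk] using hn
    refine hν α ?_
    linear_combination h2 - α * hab + α ^ 2 * CharTwo.two_eq_zero (R := F)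
  obtain ⟨M, hM⟩ := exists_sl3_to_std ha
  have h1 := reach_sl3 M (zMk α a b β)
  rw [sl3Lin_apply, hM] at h1
  generalize (M⁻¹).1ᵀ *ᵥ b = c at h1
  have h2 : Reach (zMk α ![0, 1, 0] c β) (zMk 0 ![-(α * c 2), 1, α * c 0]
      ![c 0, c 1 - α * α + α * β - α ^ 2, c 2] 1) := by
    refine reach_root 4 α ?_
    have e1 : α + α = 0 := CharTwo.add_self_eq_zero _
    have e2 : β - α = 1 := by linear_combination hab - α * CharTwo.two_eq_zero (R := F)
    funext i
    rw [rootMat_mulVec_apply]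
    fin_cases i <;> simp [zMk, rootE, rootS] <;>
      first | exact e1 | (rw [← sub_eq_add_neg]; exact e2) | ring
  obtain ⟨M', hM'⟩ := exists_sl3_to_std (u := ![-(α * c 2), 1, α * c 0])
    fun h => by simpa using congrFun h 1
  have h3 := h1.trans h2
  have h4 := reach_sl3 M' (zMk 0 ![-(α * c 2), 1, α * c 0]
      ![c 0, c 1 - α * α + α * β - α ^ 2, c 2] 1)
  rw [sl3Lin_apply, hM'] at h4
  generalize (M'⁻¹).1ᵀ *ᵥ ![c 0, c 1 - α * α + α * β - α ^ 2, c 2] = d at h4
  have h5 := h3.trans h4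
  have h6 := (reach_norm h5).trans hn
  have hd : d 1 = ν := by
    have h7 : -(d 1) = ν := by simpa [oNorm, zMk] using h6
    rwa [CharTwo.neg_eq] at h7
  have hν0 : ν ≠ 0 := fun h => hν 0 (by simp [h])
  obtain ⟨N, hN⟩ : ∃ N : Matrix.SpecialLinearGroup (Fin 3) F,
      N.1 = !![1, 0, 0; d 0 / ν, 1, d 2 / ν; 0, 0, 1] :=
    ⟨⟨_, by simp [det_fin_three]⟩, rfl⟩
  have h8 := reach_sl3 N (zMk 0 ![0, 1, 0] d 1)
  have h9 : N.1 *ᵥ ![0, 1, 0] = ![0, 1, 0] := by
    rw [hN]; funext i; fin_cases i <;> simp [mulVec, dotProduct, Fin.sum_univ_three]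
  have h10 : N.1ᵀ *ᵥ ![0, ν, 0] = d := by
    rw [hN]; funext i
    fin_cases i <;> simp [mulVec, dotProduct, Fin.sum_univ_three, hd, hν0]
  rw [sl3Lin_apply, h9, ← h10, Matrix.mulVec_mulVec, ← Matrix.transpose_mul,
    ← Matrix.SpecialLinearGroup.coe_mul, mul_inv_cancel, Matrix.SpecialLinearGroup.coe_one,
    Matrix.transpose_one, Matrix.one_mulVec, h10] at h8
  exact h5.trans h8

theorem covered_G2 [Fintype F] [CharP F 2] (hq : 4 ≤ Fintype.card F) : Covered ↥(G2 F) := by
  classical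
  obtain ⟨ν, hν, hν'⟩ := exists_not_artinSchreier F
  have hone : oTr (octOne F) = 0 := by simp [oTr, octOne, zMk, CharTwo.add_self_eq_zero]
  refine ⟨pairSub (idemE F), pairSub (reprW ν), fun h => ?_, fun h => ?_, fun g => ?_⟩
  · rcases (h ▸ Subgroup.mem_top (rootEl 4 (1 : F)) : rootEl 4 (1 : F) ∈ pairSub (idemE F))
      with h1 | h1 <;>
    · have h2 := congrFun h1 5
      change (rootMat F 4 1 *ᵥ idemE F) 5 = _ at h2
      rw [rootMat_mulVec_apply] at h2
      simp [idemE, octOne, zMk, rootE, rootS] at h2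
  · obtain ⟨t, ht⟩ : ∃ t : F, t ≠ 0 ∧ t ≠ 1 := by
      obtain ⟨t, -, ht⟩ := Finset.exists_mem_notMem_of_card_lt_card
        (s := ({0, 1} : Finset F)) (t := Finset.univ)
        (lt_of_le_of_lt Finset.card_le_two (by rw [Finset.card_univ]; omega))
      exact ⟨t, by simpa using ht⟩
    rcases (h ▸ Subgroup.mem_top (rootEl 4 t) : rootEl 4 t ∈ pairSub (reprW ν)) with h1 | h1 <;>
    · have h2 := congrFun h1 0
      change (rootMat F 4 t *ᵥ reprW ν) 0 = _ at h2
      rw [rootMat_mulVec_apply] at h2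
      simp [reprW, octOne, zMk, rootE, rootS, ht.1, ht.2] at h2
  · obtain ⟨x, hx1, hx⟩ := exists_fixed_pair g
    have hshift : ∀ t : F, oTr (x + t • octOne F) = 1 ∧
        oNorm (x + t • octOne F) = oNorm x + (t + t ^ 2) ∧
        (g2Mat g *ᵥ (x + t • octOne F) = x + t • octOne F ∨
          g2Mat g *ᵥ (x + t • octOne F) = x + t • octOne F + octOne F) := by
      intro t
      refine ⟨?_, ?_, ?_⟩
      · rw [oTr_eq, map_add, map_smul, ← oTr_eq, ← oTr_eq, hone, hx1, smul_zero, add_zero]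
      · have h7 := polarB_eq x (t • octOne F)
        rw [oNorm_smul_one, map_smul, smul_eq_mul,
          show polarB F x (octOne F) = 1 by rw [← hx1]; simp [oTr, polarB, octOne, zMk]] at h7
        linear_combination -h7
      · rw [Matrix.mulVec_add, Matrix.mulVec_smul, g2Mat_octOne]
        rcases hx with h | h
        · exact Or.inl (by rw [h])
        · exact Or.inr (by rw [h]; abel)
    have hmove : ∀ (y w : Fin 8 → F), Reach y w →
        (g2Mat g *ᵥ y = y ∨ g2Mat g *ᵥ y = y + octOne F) →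
        ∃ h : ↥(G2 F), h * g * h⁻¹ ∈ pairSub w := by
      rintro y w ⟨h, -, rfl⟩ hy
      have h1 : g2Mat h⁻¹ *ᵥ (g2Mat h *ᵥ y) = y := by
        rw [Matrix.mulVec_mulVec, g2Mat_inv_mul, Matrix.one_mulVec]
      refine ⟨h, hy.imp (fun e => ?_) (fun e => ?_)⟩
      · rw [g2Mat_mul, g2Mat_mul, ← Matrix.mulVec_mulVec, ← Matrix.mulVec_mulVec, h1, e]
      · rw [g2Mat_mul, g2Mat_mul, ← Matrix.mulVec_mulVec, ← Matrix.mulVec_mulVec, h1, e,
          Matrix.mulVec_add, g2Mat_octOne]
    by_cases hs : ∃ t, t + t ^ 2 = oNorm x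
    · obtain ⟨t, ht⟩ := hs
      obtain ⟨h1, h2, h3⟩ := hshift t
      have h4 : oNorm (x + t • octOne F) = 0 := by
        rw [h2, ht, CharTwo.add_self_eq_zero]
      have h5 : Reach (x + t • octOne F) (idemE F) := by
        refine reach_idemE ?_ (fun e => ?_) (fun e => ?_)
        · rw [zornMul_self_norm, h1, h4, one_smul, zero_smul, sub_zero]
        · rw [e] at h1; simp [oTr] at h1
        · rw [e, hone] at h1; exact zero_ne_one h1
      obtain ⟨k, hk⟩ := hmove _ _ h5 h3
      exact ⟨k, Or.inl hk⟩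
    · push Not at hs
      obtain ⟨t, ht⟩ := hν' _ hs
      obtain ⟨h1, h2, h3⟩ := hshift t
      have h4 : oNorm (x + t • octOne F) = ν := by
        rw [h2, ht, ← add_assoc, CharTwo.add_self_eq_zero, zero_add]
      obtain ⟨k, hk⟩ := hmove _ _ (reach_reprW hν h1 h4) h3
      exact ⟨k, Or.inr hk⟩

end CfsgLib.TwoClassCover
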