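import Cfsg.Agent.TwoClassCover.Basic
import Cfsg.Agent.Classical.Linear.Transitivity

/-!
`PSL_n(F)` for `n = 2, 3, 4` is covered by the conjugates of a line stabiliser and of the centraliser
of a field structure.
-/

set_option autoImplicit false
set_option linter.style.haveILetI false

namespace CfsgLib.TwoClassCover

open Polynomial Module Matrix

variable {F : Type*} [Field F] {n : ℕ}

local notation "SL" => Matrix.SpecialLinearGroup (Fin n) F

/-- A matrix as an endomorphism. -/
noncomputable def slEnd : SL →* Module.End F (Fin n → F) where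
  toFun A := Matrix.toLinAlgEquiv' A.1
  map_one' := by simp
  map_mul' A B := by rw [Matrix.SpecialLinearGroup.coe_mul, map_mul]

theorem slEnd_apply (A : SL) (v : Fin n → F) : slEnd A v = A.1 *ᵥ v := rfl

theorem exists_sl_of_det_eq_one {k : Module.End F (Fin n → F)} (hk : LinearMap.det k = 1) :
    ∃ A : SL, slEnd A = k := by
  refine ⟨⟨LinearMap.toMatrix' k, by rw [LinearMap.det_toMatrix', hk]⟩, LinearMap.ext fun v => ?_⟩
  exact LinearMap.toMatrix'_mulVec k v

/-- The elements commuting with an endomorphism. -/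
def commSub (J : Module.End F (Fin n → F)) : Subgroup SL where
  carrier := {A | Commute (slEnd A) J}
  one_mem' := by simp [Commute, SemiconjBy]
  mul_mem' {A B} hA hB := by
    show Commute _ J
    rw [map_mul]; exact hA.mul_left hB
  inv_mem' {A} hA := by
    show Commute (slEnd A⁻¹) J
    have h1 : slEnd A⁻¹ * slEnd A = 1 := by rw [← map_mul, inv_mul_cancel, map_one]
    have h2 : slEnd A * slEnd A⁻¹ = 1 := by rw [← map_mul, mul_inv_cancel, map_one]
    calc slEnd A⁻¹ * J = slEnd A⁻¹ * J * (slEnd A * slEnd A⁻¹) := by rw [h2, mul_one]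
      _ = slEnd A⁻¹ * (J * slEnd A) * slEnd A⁻¹ := by simp only [mul_assoc]
      _ = slEnd A⁻¹ * (slEnd A * J) * slEnd A⁻¹ := by rw [hA.eq]
      _ = J * slEnd A⁻¹ := by rw [← mul_assoc, h1, one_mul]

/-- The stabiliser of the line of `w`. -/
def lineSub (w : Fin n → F) : Subgroup SL where
  carrier := {A | ∃ c : F, c ≠ 0 ∧ A.1 *ᵥ w = c • w}
  one_mem' := ⟨1, one_ne_zero, by simp⟩
  mul_mem' := by
    rintro A B ⟨a, ha, hA⟩ ⟨b, hb, hB⟩
    exact ⟨b * a, mul_ne_zero hb ha, by
      rw [Matrix.SpecialLinearGroup.coe_mul, ← Matrix.mulVec_mulVec, hB, Matrix.mulVec_smul, hA,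
        smul_smul]⟩
  inv_mem' := by
    rintro A ⟨a, ha, hA⟩
    refine ⟨a⁻¹, inv_ne_zero ha, ?_⟩
    have h := congrArg (fun v => (A⁻¹).1 *ᵥ v) hA
    simp only [Matrix.mulVec_mulVec, Matrix.mulVec_smul, ← Matrix.SpecialLinearGroup.coe_mul,
      inv_mul_cancel, Matrix.SpecialLinearGroup.coe_one, Matrix.one_mulVec] at h
    calc (A⁻¹).1 *ᵥ w = a⁻¹ • (a • ((A⁻¹).1 *ᵥ w)) := by rw [inv_smul_smul₀ ha]
      _ = a⁻¹ • w := by rw [← h]

theorem covered_psl [Fintype F] (hn : 2 ≤ n) {d : ℕ} (hd : 2 ≤ d) (hdn : d ∣ n)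
    (hfac : ∀ χ Q : F[X], χ.Monic → χ.natDegree = n → (∀ x, ¬ χ.IsRoot x) → Irreducible Q →
      Q ∣ χ → d ∣ Q.natDegree) :
    Covered (Matrix.ProjectiveSpecialLinearGroup (Fin n) F) := by
  classical
  haveI : NeZero d := ⟨by omega⟩
  haveI : NeZero n := ⟨by omega⟩
  haveI : Nontrivial (Fin n) := Fin.nontrivial_iff_two_le.2 hn
  obtain ⟨P, hPm, hP, hPd⟩ := exists_irreducible_natDegree (F := F) d
  haveI : Fact (Irreducible P) := ⟨hP⟩
  obtain ⟨s, hs⟩ := hdn
  haveI : Module.Finite F (AdjoinRoot P) := (AdjoinRoot.powerBasis hP.ne_zero).finite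
  have hfr : finrank F (Fin s → AdjoinRoot P) = finrank F (Fin n → F) := by
    rw [Module.finrank_pi_fintype, Module.finrank_fin_fun, Finset.sum_const, Finset.card_univ,
      Fintype.card_fin, smul_eq_mul, (AdjoinRoot.powerBasis hP.ne_zero).finrank,
      AdjoinRoot.powerBasis_dim, hPd, hs, mul_comm]
  let e₀ := LinearEquiv.ofFinrankEq (Fin s → AdjoinRoot P) (Fin n → F) hfr
  let J : Module.End F (Fin n → F) :=
    LinearEquiv.conjAlgEquiv F e₀ (Algebra.lsmul F F _ (AdjoinRoot.root P))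
  have hJ : aeval J P = 0 := by
    show aeval (LinearEquiv.conjAlgEquiv F e₀ _) P = 0
    rw [aeval_algHom_apply, aeval_algHom_apply, AdjoinRoot.aeval_eq, AdjoinRoot.mk_self, map_zero,
      map_zero]
  let w : Fin n → F := Pi.single 0 1
  have hw : w ≠ 0 := fun h => by simpa [w] using congrFun h 0
  refine covered_quotient _ (H := lineSub w) (K := commSub J) ?_ ?_ ?_ ?_ ?_
  · intro A hA
    obtain ⟨r, hr, hA⟩ := Matrix.SpecialLinearGroup.mem_center_iff.1 hA
    refine ⟨r, fun h => ?_, by rw [← hA]; simp⟩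
    rw [h, zero_pow (by simp; omega)] at hr
    exact zero_ne_one hr
  · intro A hA
    obtain ⟨r, -, hA⟩ := Matrix.SpecialLinearGroup.mem_center_iff.1 hA
    show Commute _ J
    have : slEnd A = r • (1 : Module.End F (Fin n → F)) := LinearMap.ext fun v => by
      rw [slEnd_apply, ← hA]; simp
    rw [this]
    exact (Commute.one_left J).smul_left r
  · intro h
    obtain ⟨x, hx⟩ := CfsgLib.Classical.Linear.exists_sl_mulVec_eq hw
      (w := (Pi.single ⟨1, hn⟩ 1 : Fin n → F)) (fun h => by simpa using congrFun h ⟨1, hn⟩)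
    obtain ⟨c, -, hc⟩ : x ∈ lineSub w := h ▸ Subgroup.mem_top x
    have := congrFun (hx.symm.trans hc) ⟨1, hn⟩
    simp [w, Pi.single_apply, Fin.ext_iff] at this
  · intro h
    have h1 : ∀ t : Matrix.TransvectionStruct (Fin n) F,
        Commute t.toMatrix (LinearMap.toMatrix' J) := by
      intro t
      obtain ⟨tS, htS⟩ : ∃ tS : SL, tS.1 = t.toMatrix := ⟨⟨t.toMatrix, t.det⟩, rfl⟩
      have ht : tS ∈ commSub J := h ▸ Subgroup.mem_top _
      have h2 := congrArg LinearMap.toMatrix' (ht : _ = _)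
      rwa [LinearMap.toMatrix'_mul, LinearMap.toMatrix'_mul,
        show LinearMap.toMatrix' (slEnd tS) = t.toMatrix from
          (LinearMap.toMatrix'_toLin' _).trans htS] at h2
    obtain ⟨c, hc⟩ := Matrix.mem_range_scalar_of_commute_transvectionStruct h1
    have hJc : J = algebraMap F _ c := by
      refine LinearMap.toMatrix'.injective ?_
      rw [← hc]
      ext i j
      simp [LinearMap.toMatrix'_apply, Matrix.diagonal_apply, Pi.single_apply,
        Algebra.algebraMap_eq_smul_one]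
    rw [hJc, Polynomial.aeval_algebraMap_apply] at hJ
    have h3 : P.IsRoot c := by
      rw [IsRoot.def, ← Polynomial.coe_aeval_eq_eval]
      exact (map_eq_zero_iff _ (algebraMap F (Module.End F (Fin n → F))).injective).1 hJ
    have h4 : P.natDegree = 1 := Polynomial.natDegree_eq_of_degree_eq_some
      (Polynomial.degree_eq_one_of_irreducible_of_root hP h3)
    omega
  · intro g
    by_cases hroot : ∃ x, (slEnd g).charpoly.IsRoot x
    · obtain ⟨c, hc⟩ := hroot
      obtain ⟨v, hv⟩ := ((Module.End.hasEigenvalue_iff_isRoot_charpoly _ _).2 hc).exists_hasEigenvector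
      obtain ⟨x, hx⟩ := CfsgLib.Classical.Linear.exists_sl_mulVec_eq hv.2 hw
      refine ⟨x, Or.inl ⟨c, fun h => ?_, ?_⟩⟩
      · have h1 : g.1 *ᵥ v = c • v := hv.apply_eq_smul
        rw [h, zero_smul] at h1
        have h2 := congrArg (fun u => (g⁻¹).1 *ᵥ u) h1
        simp only [Matrix.mulVec_mulVec, ← Matrix.SpecialLinearGroup.coe_mul, inv_mul_cancel,
          Matrix.SpecialLinearGroup.coe_one, Matrix.one_mulVec, Matrix.mulVec_zero] at h2
        exact hv.2 h2
      · rw [← hx, Matrix.mulVec_mulVec, ← Matrix.SpecialLinearGroup.coe_mul, inv_mul_cancel_right,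
          Matrix.SpecialLinearGroup.coe_mul, ← Matrix.mulVec_mulVec,
          show g.1 *ᵥ v = c • v from hv.apply_eq_smul, Matrix.mulVec_smul, hx]
    · push Not at hroot
      obtain ⟨J', hJ', hcomm⟩ := exists_commute_root (slEnd g) hP fun Q hQ hQd =>
        hPd ▸ hfac _ Q (LinearMap.charpoly_monic _)
          (by rw [LinearMap.charpoly_natDegree, Module.finrank_fin_fun]) hroot hQ hQd
      obtain ⟨e, he⟩ := CfsgLib.Classical.Semisimple.exists_equiv_of_irreducible hP hJ' hJ rfl
      haveI : Nontrivial (Fin n → F) := inferInstance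
      obtain ⟨k, hk, hkd⟩ := CfsgLib.Classical.Semisimple.exists_commute_det_eq
        (f := J) (Module.End.isSemisimple_of_squarefree_aeval_eq_zero hP.squarefree hJ)
        (d := (LinearMap.det (e : (Fin n → F) →ₗ[F] Fin n → F))⁻¹)
        (inv_ne_zero (LinearEquiv.isUnit_det' e).ne_zero)
      obtain ⟨x, hx⟩ := exists_sl_of_det_eq_one (k := (k : (Fin n → F) →ₗ[F] Fin n → F) * (e : (Fin n → F) →ₗ[F] Fin n → F)) (by
        rw [map_mul, hkd, inv_mul_cancel₀ (LinearEquiv.isUnit_det' e).ne_zero])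
      have hxJ : slEnd x * J' = J * slEnd x := by
        rw [hx]
        refine LinearMap.ext fun v => ?_
        simp [he, hk]
      refine ⟨x, Or.inr ?_⟩
      show Commute (slEnd (x * g * x⁻¹)) J
      have h1 : slEnd x * slEnd x⁻¹ = 1 := by rw [← map_mul, mul_inv_cancel, map_one]
      have h2 : slEnd x⁻¹ * slEnd x = 1 := by rw [← map_mul, inv_mul_cancel, map_one]
      have hJ2 : J = slEnd x * J' * slEnd x⁻¹ := by rw [hxJ, mul_assoc, h1, mul_one]
      rw [map_mul, map_mul, hJ2]
      show _ * _ = _ * _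
      calc slEnd x * slEnd g * slEnd x⁻¹ * (slEnd x * J' * slEnd x⁻¹)
          = slEnd x * slEnd g * (slEnd x⁻¹ * slEnd x) * J' * slEnd x⁻¹ := by simp only [mul_assoc]
        _ = slEnd x * (J' * slEnd g) * slEnd x⁻¹ := by
          rw [h2, mul_one, ← hcomm.eq, ← mul_assoc]
        _ = slEnd x * J' * (slEnd x⁻¹ * slEnd x) * slEnd g * slEnd x⁻¹ := by
          rw [h2, mul_one, ← mul_assoc]
        _ = slEnd x * J' * slEnd x⁻¹ * (slEnd x * slEnd g * slEnd x⁻¹) := by
          simp only [mul_assoc]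

theorem natDegree_ne_one_of_dvd {χ Q : F[X]} (hr : ∀ x, ¬ χ.IsRoot x) (h : Q ∣ χ) :
    Q.natDegree ≠ 1 := fun h1 => by
  have hQ : Q ≠ 0 := fun h0 => by simp [h0] at h1
  obtain ⟨x, hx⟩ := Polynomial.exists_root_of_degree_eq_one (p := Q)
    (by rw [Polynomial.degree_eq_natDegree hQ, h1]; rfl)
  exact hr x (hx.dvd h)

theorem covered_psl_two [Fintype F] : Covered (Matrix.ProjectiveSpecialLinearGroup (Fin 2) F) := by
  refine covered_psl le_rfl le_rfl dvd_rfl fun χ Q hm hd hr hQ hQd => ?_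
  have h1 := natDegree_ne_one_of_dvd hr hQd
  have h2 := Polynomial.natDegree_le_of_dvd hQd hm.ne_zero
  have h3 := hQ.natDegree_pos
  exact (show Q.natDegree = 2 by omega) ▸ dvd_rfl

theorem covered_psl_three [Fintype F] :
    Covered (Matrix.ProjectiveSpecialLinearGroup (Fin 3) F) := by
  refine covered_psl (by norm_num) (d := 3) (by norm_num) dvd_rfl fun χ Q hm hd hr hQ hQd => ?_
  have h1 := natDegree_ne_one_of_dvd hr hQd
  have h2 := Polynomial.natDegree_le_of_dvd hQd hm.ne_zero
  have h3 := hQ.natDegree_pos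
  obtain ⟨R, hR⟩ := hQd
  have hR0 : R ≠ 0 := by rintro rfl; exact hm.ne_zero (by rw [hR, mul_zero])
  have h4 := Polynomial.natDegree_mul hQ.ne_zero hR0
  rw [← hR, hd] at h4
  have h5 := natDegree_ne_one_of_dvd hr ⟨Q, hR.trans (mul_comm Q R)⟩
  exact (show Q.natDegree = 3 by omega) ▸ dvd_rfl

theorem covered_psl_four [Fintype F] :
    Covered (Matrix.ProjectiveSpecialLinearGroup (Fin 4) F) := by
  refine covered_psl (by norm_num) (d := 2) le_rfl (by norm_num) fun χ Q hm hd hr hQ hQd => ?_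
  have h1 := natDegree_ne_one_of_dvd hr hQd
  have h2 := Polynomial.natDegree_le_of_dvd hQd hm.ne_zero
  have h3 := hQ.natDegree_pos
  obtain ⟨R, hR⟩ := hQd
  have hR0 : R ≠ 0 := by rintro rfl; exact hm.ne_zero (by rw [hR, mul_zero])
  have h4 := Polynomial.natDegree_mul hQ.ne_zero hR0
  rw [← hR, hd] at h4
  have h5 := natDegree_ne_one_of_dvd hr ⟨Q, hR.trans (mul_comm Q R)⟩
  omega

end CfsgLib.TwoClassCover
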