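import Cfsg.Agent.TwoClassCover.SixModel

/-!
`PSp₆(3^a)` is covered by the conjugates of a plane stabiliser and of the semilinear group.
-/

set_option autoImplicit false
set_option linter.style.haveILetI false

namespace CfsgLib.TwoClassCover.Six

open Module Matrix Polynomial CfsgLib.Classical.Symp

universe u

variable {F : Type u} [Field F] [Fintype F] [CharP F 3] {L : Type u} [Field L] [Algebra F L] [Finite L]

local notation "V" => Fin 3 ⊕ Fin 3 → F
local notation "B" => Cfsg.sympForm 3 F
local notation "Sp" => Matrix.symplecticGroup (Fin 3) F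

theorem nilpotent_case (hL : finrank F L = 3) {Φ : (L × L) ≃ₗ[F] V}
    (hΦ : ∀ u v, B (Φ u) (Φ v) = mForm (F := F) u v) {g : Sp} {c : F} (hc : c ^ 2 ≠ 4 ∨ c = 2)
    (h3 : ∀ x, np g c (np g c (np g c x)) = 0) :
    HasPlane g ∨ ∃ h : Sp, h * g * h⁻¹ ∈ semiSp Φ := by
  by_cases h2 : ∃ x, np g c (np g c x) ≠ 0
  · obtain ⟨x, hx⟩ := exists_beta_ne h3 hc h2
    have htwo : (2 : F) ≠ 0 := fun h => one_ne_zero (show (1 : F) = 0 by
      have h3' : (3 : F) = 0 := by exact_mod_cast CharP.cast_eq_zero F 3
      linear_combination h3' - h)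
    rcases hc with hc | rfl
    · obtain ⟨A, hAK, hA3, hA2⟩ := exists_model_generic hL hΦ hc
      obtain ⟨x', hx'⟩ := exists_beta_ne hA3 (Or.inl hc) hA2
      obtain ⟨h, rfl⟩ := conj_of_ne_four hc h3 hA3 hx hx'
      exact Or.inr ⟨h, hAK⟩
    · obtain ⟨A, hAK, hA3, x', hx'⟩ := exists_model_two hL hΦ hx
      obtain ⟨h, rfl⟩ := conj_of_beta htwo h3 hA3 hx rfl hx'
      exact Or.inr ⟨h, hAK⟩
  · push Not at h2
    rcases hc with hc | rfl
    · exact Or.inl (plane_of_sq_zero hc h2)
    · rcases plane_or_three h2 with h | ⟨hN, hN2⟩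
      · exact Or.inl h
      · obtain ⟨A, hAK, hA3, hA2⟩ := exists_model_three hL hΦ
        obtain ⟨h, rfl⟩ := conj_three hN hN2 hA3 hA2
        exact Or.inr ⟨h, hAK⟩

theorem exists_cases (hL : finrank F L = 3) {Φ : (L × L) ≃ₗ[F] V}
    (hΦ : ∀ u v, B (Φ u) (Φ v) = mForm (F := F) u v) (g : Sp) :
    HasPlane g ∨ ∃ h : Sp, h * g * h⁻¹ ∈ semiSp Φ := by
  classical
  have h3F : (3 : F) = 0 := by exact_mod_cast CharP.cast_eq_zero F 3
  have htwo : (2 : F) ≠ 0 := fun h => one_ne_zero (show (1 : F) = 0 by linear_combination h3F - h)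
  let a := adjSum g
  have hcommP : ∀ P : F[X], Commute (aeval a P) (spEnd g) := fun P => by
    induction P using Polynomial.induction_on' with
    | add p q hp hq => rw [map_add]; exact hp.add_left hq
    | monomial k b =>
      rw [aeval_monomial]
      exact (Algebra.commute_algebraMap_left b _).mul_left ((adjSum_commute g).pow_left k)
  let μ := minpoly F a
  have hint : IsIntegral F a := Algebra.IsIntegral.isIntegral a
  haveI : Nontrivial V := inferInstance
  obtain ⟨f, hfm, hfirr, hfdvd⟩ := Polynomial.exists_monic_irreducible_factor μ (minpoly.not_isUnit F a)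
  obtain ⟨e, r, hfr, hμ⟩ := WfDvdMonoid.max_power_factor (minpoly.ne_zero hint) hfirr
  have he : 0 < e := by
    by_contra h
    rw [Nat.eq_zero_of_not_pos h, pow_zero, one_mul] at hμ
    exact hfr (hμ ▸ hfdvd)
  have hμ0 : aeval a (f ^ e * r) = 0 := by rw [← hμ]; exact minpoly.aeval F a
  by_cases hr : IsUnit r
  · have hfe : aeval a (f ^ e) = 0 := by
      obtain ⟨w, hw⟩ := hr.exists_right_inv
      rw [← mul_one (f ^ e), ← hw, ← mul_assoc, map_mul, hμ0, zero_mul]
    have hfe1 : aeval a (f ^ (e - 1)) ≠ 0 := fun h => by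
      have h1 : f ^ e ∣ f ^ (e - 1) :=
        (dvd_mul_right (f ^ e) r).trans (hμ ▸ minpoly.dvd F a h)
      have := (pow_dvd_pow_iff hfirr.ne_zero hfirr.not_isUnit).1 h1
      omega
    obtain ⟨x, hx⟩ : ∃ x, aeval a (f ^ (e - 1)) x ≠ 0 := by
      by_contra! h
      exact hfe1 (LinearMap.ext h)
    set D := e * f.natDegree with hD
    have hDdeg : (f ^ e).natDegree = D := Polynomial.natDegree_pow f e
    have hD3 : D ≤ 3 := by
      let ι : Polynomial.degreeLT F D →ₗ[F] V :=
        (LinearMap.applyₗ x).comp ((aeval a).toLinearMap.comp (Polynomial.degreeLT F D).subtype)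
      have hinj : Function.Injective ι := (injective_iff_map_eq_zero ι).2 fun ⟨P, hP⟩ hPx => by
        have hPx' : aeval a P x = 0 := hPx
        refine Subtype.ext (by_contra fun hP0 : P ≠ 0 => ?_)
        have hd0 : aeval a (EuclideanDomain.gcd P (f ^ e)) x = 0 := by
          rw [EuclideanDomain.gcd_eq_gcd_ab, mul_comm P, map_add, map_mul, map_mul, hfe, zero_mul,
            add_zero, Module.End.mul_apply, hPx', map_zero]
        obtain ⟨j, hje, hj⟩ := (dvd_prime_pow hfirr.prime e).1 (EuclideanDomain.gcd_dvd_right P (f ^ e))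
        rcases eq_or_lt_of_le hje with rfl | hlt
        · have h1 : f ^ j ∣ P := hj.dvd'.trans (EuclideanDomain.gcd_dvd_left P (f ^ j))
          have h2 := Polynomial.natDegree_le_of_dvd h1 hP0
          rw [hDdeg] at h2
          have h3 := (Polynomial.natDegree_lt_iff_degree_lt hP0).2 (Polynomial.mem_degreeLT.1 hP)
          omega
        · have h1 : EuclideanDomain.gcd P (f ^ e) ∣ f ^ (e - 1) :=
            hj.dvd.trans (pow_dvd_pow f (by omega))
          obtain ⟨w, hw⟩ := h1
          exact hx (by rw [hw, mul_comm, map_mul, Module.End.mul_apply, hd0, map_zero])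
      have h1 := isotropic_finrank_le (LinearMap.range ι) (by
        rintro _ ⟨⟨P, _⟩, rfl⟩ _ ⟨⟨Q, _⟩, rfl⟩
        show B (aeval (adjSum g) P x) (aeval (adjSum g) Q x) = 0
        rw [← aeval_symm, ← Module.End.mul_apply, ← map_mul, aeval_isotropic htwo])
      rw [LinearMap.finrank_range_of_inj hinj, (Polynomial.degreeLTEquiv F D).finrank_eq,
        Module.finrank_fin_fun] at h1
      exact h1
    have hd := hfirr.natDegree_pos
    have hdle : f.natDegree ≤ 3 :=
      le_trans (Nat.le_mul_of_pos_left _ he) hD3
    have hele : e ≤ 3 := le_trans (Nat.le_mul_of_pos_right _ hd) hD3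
    interval_cases hfd : f.natDegree
    · -- a single eigenvalue
      obtain ⟨c, hfc⟩ : ∃ c, f = X - Polynomial.C c :=
        ⟨-f.coeff 0, by
          conv_lhs => rw [Polynomial.eq_X_add_C_of_natDegree_le_one hfd.le]
          have h1 : f.coeff 1 = 1 := by
            have := hfm.coeff_natDegree
            rwa [hfd] at this
          rw [h1, map_one, one_mul, map_neg, sub_neg_eq_add]⟩
      have hn : aeval a f = np g c := by rw [hfc, map_sub, aeval_X, aeval_C]; rfl
      have h3 : ∀ x, np g c (np g c (np g c x)) = 0 := by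
        intro x
        have h0 : aeval a (f ^ (e + (3 - e))) = 0 := by rw [pow_add, map_mul, hfe, zero_mul]
        have h1 : aeval a (f ^ 3) = 0 := by rwa [show e + (3 - e) = 3 by omega] at h0
        rw [map_pow, hn, pow_succ, pow_two] at h1
        exact LinearMap.congr_fun h1 x
      by_cases hc : c ^ 2 ≠ 4 ∨ c = 2
      · exact nilpotent_case hL hΦ hc h3
      push Not at hc
      have hc2 : c = -2 := by
        have : (c - 2) * (c + 2) = 0 := by linear_combination hc.1
        exact eq_neg_of_add_eq_zero_left ((mul_eq_zero.1 this).resolve_left (sub_ne_zero.2 hc.2))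
      let g' : Sp := negOne 3 F * g
      have hneg : ∀ x, spEnd (negOne 3 F) x = -x := fun x => by
        rw [spEnd_apply]; simp [negOne, Matrix.neg_mulVec]
      have hg' : ∀ x, spEnd g' x = -spEnd g x := fun x => by
        rw [map_mul, Module.End.mul_apply, hneg]
      have hg'i : ∀ x, spEnd g'⁻¹ x = -spEnd g⁻¹ x := fun x => by
        apply mulVec_injective g'
        show spEnd g' (spEnd g'⁻¹ x) = spEnd g' (-spEnd g⁻¹ x)
        rw [spEnd_apply_inv, map_neg, hg', neg_neg, spEnd_apply_inv]
      have hnp : ∀ x, np g' 2 x = -np g c x := fun x => by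
        rw [np_apply, np_apply, adjSum, adjSum, LinearMap.add_apply, LinearMap.add_apply, hg', hg'i,
          hc2]
        module
      rcases nilpotent_case hL hΦ (Or.inr rfl) (g := g') (c := 2) (fun x => by
          simp only [hnp, map_neg, h3, neg_zero]) with ⟨x, y, hxy, h1, h2⟩ | ⟨h, hh⟩
      · refine Or.inl ⟨x, y, hxy, ?_, ?_⟩
        · rw [hg'] at h1; exact neg_mem_iff.1 h1
        · rw [hg'] at h2; exact neg_mem_iff.1 h2
      · refine Or.inr ⟨h, ?_⟩
        have hz : negOne 3 F ∈ Subgroup.center Sp := mem_center_iff.2 (Or.inr rfl)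
        have hm := (semiSp Φ).mul_mem (center_le_semiSp Φ hz) hh
        have heq : negOne 3 F * (h * g' * h⁻¹) = h * g * h⁻¹ := by
          have hsq : negOne 3 F * negOne 3 F = 1 := spEnd_ext fun x => by
            rw [map_mul, Module.End.mul_apply, hneg, hneg, neg_neg, map_one, Module.End.one_apply]
          have hcz := Subgroup.mem_center_iff.1 hz
          calc negOne 3 F * (h * g' * h⁻¹) = (negOne 3 F * h) * (negOne 3 F * g) * h⁻¹ := by
                simp only [g', mul_assoc]
            _ = h * (negOne 3 F * negOne 3 F) * g * h⁻¹ := by rw [← hcz h]; simp only [mul_assoc]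
            _ = h * g * h⁻¹ := by rw [hsq, mul_one]
        rwa [heq] at hm
    · -- an irreducible quadratic is impossible
      exfalso
      obtain rfl : e = 1 := by omega
      rw [pow_one] at hfe
      set s := f.coeff 1
      set d := f.coeff 0
      have hf2 : f = X ^ 2 + Polynomial.C s * X + Polynomial.C d := by
        conv_lhs => rw [hfm.as_sum, hfd]
        simp [Finset.sum_range_succ]
        ring
      have hrel : ∀ v, a (a v) = -(s • a v) - d • v := fun v => by
        have h1 := LinearMap.congr_fun hfe v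
        rw [hf2] at h1
        simp [pow_two, Module.End.mul_apply, Module.algebraMap_end_apply] at h1
        linear_combination (norm := module) h1
      have hroot : ∀ t : F, t ^ 2 + s * t + d ≠ 0 := fun t ht => by
        have h1 := Polynomial.degree_eq_one_of_irreducible_of_root hfirr (x := t) (by
          rw [IsRoot.def, hf2]; simp; linear_combination ht)
        rw [Polynomial.degree_eq_natDegree hfirr.ne_zero, hfd] at h1
        exact absurd h1 (by decide)
      have key : ∀ (S : Submodule F V), (∀ v ∈ S, a v ∈ S) → ∀ z ∉ S, ∀ p q : F,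
          p • z + q • a z ∈ S → p = 0 ∧ q = 0 := by
        intro S hS z hz p q hpq
        have h1 : (p ^ 2 - s * p * q + d * q ^ 2) • z ∈ S := by
          have h2 := hS _ hpq
          rw [map_add, map_smul, map_smul, hrel] at h2
          have h3 := S.sub_mem (S.smul_mem (p - q * s) hpq) (S.smul_mem q h2)
          convert h3 using 1
          module
        by_cases hq : q = 0
        · subst hq
          refine ⟨by_contra fun hp => hz ?_, rfl⟩
          have h4 := S.smul_mem p⁻¹ hpq
          rwa [zero_smul, add_zero, inv_smul_smul₀ hp] at h4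
        · refine absurd ?_ hz
          have hne : p ^ 2 - s * p * q + d * q ^ 2 ≠ 0 := fun h => hroot (-p / q) (by
            field_simp
            linear_combination h)
          have h4 := S.smul_mem (p ^ 2 - s * p * q + d * q ^ 2)⁻¹ h1
          rwa [inv_smul_smul₀ hne] at h4
      let S := Submodule.span F {x, a x}
      have hx0 : x ≠ 0 := fun h => hx (by rw [h, map_zero])
      have hSinv : ∀ v ∈ S, a v ∈ S := fun v hv => by
        obtain ⟨p, q, rfl⟩ := Submodule.mem_span_pair.1 hv
        refine Submodule.mem_span_pair.2 ⟨-(q * d), p - q * s, ?_⟩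
        rw [map_add, map_smul, map_smul, hrel]
        module
      have hSr : finrank F S = 2 := by
        have hli : LinearIndependent F ![x, a x] := LinearIndependent.pair_iff.2 fun p q h =>
          key ⊥ (fun v hv => by rw [(Submodule.mem_bot F).1 hv, map_zero]; exact zero_mem _) x
            (by simpa using hx0) p q (by rw [h]; exact zero_mem _)
        have h1 := finrank_span_eq_card hli
        rwa [Fintype.card_fin, Matrix.range_cons, Matrix.range_cons, Matrix.range_empty,
          Set.union_empty, Set.singleton_union] at h1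
      have hself : ∀ v, B v (a v) = 0 := fun v => by
        have h1 := aeval_isotropic htwo g X v
        rw [aeval_X] at h1
        rw [form_swap, h1, neg_zero]
      have hSiso : ∀ u ∈ S, ∀ v ∈ S, B u v = 0 := by
        intro u hu v hv
        obtain ⟨p, q, rfl⟩ := Submodule.mem_span_pair.1 hu
        obtain ⟨p', q', rfl⟩ := Submodule.mem_span_pair.1 hv
        simp [form_add_left, form_add_right, form_smul_left, form_smul_right, form_self, hself,
          form_swap (a x) x]
      obtain ⟨z, hzP, hzS⟩ : ∃ z ∈ orthSub S, z ∉ S := by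
        by_contra! h
        have h1 := Submodule.finrank_mono (show orthSub S ≤ S from h)
        have h2 := finrank_orthSub S
        omega
      have hzP' : a z ∈ orthSub S := fun u hu => by
        rw [← adjSum_symm]; exact hzP _ (hSinv u hu)
      let U := Submodule.span F {z, a z}
      have hUr : finrank F U = 2 := by
        have hli : LinearIndependent F ![z, a z] := LinearIndependent.pair_iff.2 fun p q h =>
          key S hSinv z hzS p q (by rw [h]; exact zero_mem _)
        have h1 := finrank_span_eq_card hli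
        rwa [Fintype.card_fin, Matrix.range_cons, Matrix.range_cons, Matrix.range_empty,
          Set.union_empty, Set.singleton_union] at h1
      have hdisj : S ⊓ U = ⊥ := by
        rw [eq_bot_iff]
        rintro v ⟨hv1, hv2⟩
        obtain ⟨p, q, rfl⟩ := Submodule.mem_span_pair.1 hv2
        obtain ⟨rfl, rfl⟩ := key S hSinv z hzS p q hv1
        simp
      have hUiso : ∀ u ∈ U, ∀ v ∈ U, B u v = 0 := by
        intro u hu v hv
        obtain ⟨p, q, rfl⟩ := Submodule.mem_span_pair.1 hu
        obtain ⟨p', q', rfl⟩ := Submodule.mem_span_pair.1 hv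
        simp [form_add_left, form_add_right, form_smul_left, form_smul_right, form_self, hself,
          form_swap (a z) z]
      have hUP : U ≤ orthSub S := by
        rw [Submodule.span_le, Set.insert_subset_iff, Set.singleton_subset_iff]
        exact ⟨hzP, hzP'⟩
      have h4 := isotropic_finrank_le (S ⊔ U) (fun u hu v hv => by
        obtain ⟨u1, hu1, u2, hu2, rfl⟩ := Submodule.mem_sup.1 hu
        obtain ⟨v1, hv1, v2, hv2, rfl⟩ := Submodule.mem_sup.1 hv
        rw [form_add_left, form_add_right, form_add_right, hSiso u1 hu1 v1 hv1, hUP hv2 u1 hu1,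
          hUiso u2 hu2 v2 hv2, form_swap u2 v1, hUP hu2 v1 hv1, neg_zero]
        ring)
      have h5 := Submodule.finrank_sup_add_finrank_inf_eq S U
      rw [hdisj, finrank_bot, hSr, hUr] at h5
      omega
    · -- a field structure
      obtain rfl : e = 1 := by omega
      rw [pow_one] at hfe
      haveI : Fact (Irreducible f) := ⟨hfirr⟩
      haveI : Module.Finite F (AdjoinRoot f) := (AdjoinRoot.powerBasis hfirr.ne_zero).finite
      haveI : Finite (AdjoinRoot f) := Module.finite_of_finite F
      have hfr3 : finrank F (AdjoinRoot f) = 3 := by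
        rw [(AdjoinRoot.powerBasis hfirr.ne_zero).finrank, AdjoinRoot.powerBasis_dim, hfd]
      haveI : Module.Finite F L := Module.Finite.of_finite
      obtain ⟨φ⟩ := (FiniteField.nonempty_algHom_iff_finrank_dvd (F := F) (K := AdjoinRoot f)
        (L := L)).2 (by rw [hfr3, hL])
      have hφb : Function.Bijective φ := ⟨φ.toRingHom.injective,
        (LinearMap.injective_iff_surjective_of_finrank_eq_finrank (f := φ.toLinearMap)
          (by rw [hfr3, hL])).1 φ.toRingHom.injective⟩
      let θ0 : AdjoinRoot f →ₐ[F] Module.End F V :=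
        Ideal.Quotient.liftₐ (Ideal.span {f}) (aeval a) fun P hP => by
          obtain ⟨w, rfl⟩ := Ideal.mem_span_singleton.1 hP
          rw [map_mul, hfe, zero_mul]
      let θ : L →ₐ[F] Module.End F V := θ0.comp (AlgEquiv.ofBijective φ hφb).symm.toAlgHom
      have hθ : ∀ l, ∃ P : F[X], θ l = aeval a P := fun l => by
        obtain ⟨P, hP⟩ := AdjoinRoot.mk_surjective ((AlgEquiv.ofBijective φ hφb).symm l)
        refine ⟨P, ?_⟩
        show θ0 ((AlgEquiv.ofBijective φ hφb).symm l) = _
        rw [← hP]
        rfl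
      refine Or.inr (field_case hL hΦ g θ (fun l x => ?_) (fun l x y => ?_) fun l x => ?_) <;>
        obtain ⟨P, hP⟩ := hθ l <;> rw [hP]
      · exact LinearMap.congr_fun (hcommP P).eq x
      · exact aeval_symm g P x y
      · exact aeval_isotropic htwo g P x
  · -- two coprime factors give an orthogonal decomposition
    left
    have hcop : IsCoprime (f ^ e) r := (hfirr.coprime_iff_not_dvd.2 hfr).pow_left
    let K1 := LinearMap.ker (aeval a (f ^ e))
    let K2 := LinearMap.ker (aeval a r)
    obtain ⟨u, v, huv⟩ := hcop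
    have hone : ∀ x, aeval a (u * f ^ e) x + aeval a (v * r) x = x := fun x => by
      rw [← LinearMap.add_apply, ← map_add, huv, map_one]; rfl
    have hK1 : ∀ x ∈ K1, aeval a (v * r) x = x := fun x hx => by
      have h1 := hone x
      rwa [map_mul (aeval a) u, Module.End.mul_apply, show aeval a (f ^ e) x = 0 from hx, map_zero,
        zero_add] at h1
    have horth : ∀ x ∈ K1, ∀ y ∈ K2, B x y = 0 := fun x hx y hy => by
      rw [← hK1 x hx, aeval_symm, map_mul, Module.End.mul_apply, show aeval a r y = 0 from hy,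
        map_zero, form_zero_right]
    have hcompl : IsCompl K1 K2 := by
      refine ⟨Submodule.disjoint_def.2 fun x h1 h2 => ?_, codisjoint_iff.2 (eq_top_iff.2 fun x _ => ?_)⟩
      · rw [← hK1 x h1, map_mul, Module.End.mul_apply, show aeval a r x = 0 from h2, map_zero]
      · rw [← hone x, add_comm]
        refine Submodule.add_mem_sup ?_ ?_
        · show aeval a (f ^ e) (aeval a (v * r) x) = 0
          rw [← Module.End.mul_apply, ← map_mul, show f ^ e * (v * r) = v * (f ^ e * r) by ring,
            map_mul, hμ0, mul_zero, LinearMap.zero_apply]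
        · show aeval a r (aeval a (u * f ^ e) x) = 0
          rw [← Module.End.mul_apply, ← map_mul, show r * (u * f ^ e) = u * (f ^ e * r) by ring,
            map_mul, hμ0, mul_zero, LinearMap.zero_apply]
    have hne1 : finrank F K1 ≠ 0 := fun h => by
      have hbot := Submodule.finrank_eq_zero.1 h
      have hr0 : aeval a r = 0 := LinearMap.ext fun x => by
        have : aeval a r x ∈ K1 := by
          show aeval a (f ^ e) (aeval a r x) = 0
          rw [← Module.End.mul_apply, ← map_mul, hμ0, LinearMap.zero_apply]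
        rwa [hbot, Submodule.mem_bot] at this
      exact hfr ((hfdvd : f ∣ μ).trans (minpoly.dvd F a hr0))
    have hne2 : finrank F K2 ≠ 0 := fun h => by
      have hbot := Submodule.finrank_eq_zero.1 h
      have hf0 : aeval a (f ^ e) = 0 := LinearMap.ext fun x => by
        have : aeval a (f ^ e) x ∈ K2 := by
          show aeval a r (aeval a (f ^ e) x) = 0
          rw [← Module.End.mul_apply, ← map_mul, mul_comm, hμ0, LinearMap.zero_apply]
        rwa [hbot, Submodule.mem_bot] at this
      obtain ⟨w, hw⟩ := hμ ▸ minpoly.dvd F a hf0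
      refine hr ((isUnit_iff_exists_inv).2 ⟨w, mul_left_cancel₀ (pow_ne_zero e hfirr.ne_zero) ?_⟩)
      rw [mul_one, ← mul_assoc, ← hw]
    have hnd : ∀ (K K' : Submodule F V), IsCompl K K' → (∀ x ∈ K, ∀ y ∈ K', B x y = 0) →
        ∀ x ∈ K, (∀ y ∈ K, B x y = 0) → x = 0 := fun K K' hKK ho x hx hxK =>
      eq_zero_of_form_eq_zero fun y => by
        obtain ⟨y1, h1, y2, h2, rfl⟩ := Submodule.mem_sup.1
          (hKK.sup_eq_top.symm ▸ (Submodule.mem_top : y ∈ ⊤))
        rw [form_add_right, hxK y1 h1, ho x hx y2 h2, add_zero]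
    have horth' : ∀ x ∈ K2, ∀ y ∈ K1, B x y = 0 := fun x hx y hy => by
      rw [form_swap, horth y hy x hx, neg_zero]
    have heven : ∀ (K : Submodule F V), (∀ x ∈ K, (∀ y ∈ K, B x y = 0) → x = 0) →
        Even (finrank F K) := fun K hK => by
      let β : K →ₗ[F] K →ₗ[F] F := LinearMap.mk₂ F (fun x y => B (x : V) y)
        (fun x x' y => by simp [form_add_left]) (fun c x y => by simp [form_smul_left])
        (fun x y y' => by simp [form_add_right]) (fun c x y => by simp [form_smul_right])
      exact CfsgLib.G2Oct.even_finrank_of_alternating _ rfl β (fun x => form_self _) fun x hx =>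
        Subtype.ext (hK x x.2 fun y hy => hx ⟨y, hy⟩)
    have hinv : ∀ P : F[X], ∀ x ∈ LinearMap.ker (aeval a P), spEnd g x ∈ LinearMap.ker (aeval a P) := by
      intro P x hx
      show aeval a P (spEnd g x) = 0
      rw [← Module.End.mul_apply, (hcommP P).eq, Module.End.mul_apply, show aeval a P x = 0 from hx,
        map_zero]
    have hsum := Submodule.finrank_add_eq_of_isCompl hcompl
    rw [Module.finrank_fintype_fun_eq_card, Fintype.card_sum, Fintype.card_fin] at hsum
    obtain ⟨k1, hk1⟩ := heven K1 (hnd K1 K2 hcompl horth)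
    obtain ⟨k2, hk2⟩ := heven K2 (hnd K2 K1 hcompl.symm horth')
    by_cases h2 : finrank F K1 = 2
    · exact hasPlane_of_subspace K1 h2 (hnd K1 K2 hcompl horth) (hinv _)
    · exact hasPlane_of_subspace K2 (by omega) (hnd K2 K1 hcompl.symm horth') (hinv _)

/-- The stabiliser of the reference plane. -/
def planeSp : Subgroup Sp where
  carrier := {A | ∀ x ∈ Submodule.span F ({stdE 0, stdF 0} : Set V),
    spEnd A x ∈ Submodule.span F ({stdE 0, stdF 0} : Set V)}
  one_mem' x hx := by rwa [map_one]
  mul_mem' {A A'} hA hA' x hx := by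
    rw [map_mul, Module.End.mul_apply]; exact hA _ (hA' x hx)
  inv_mem' {A} hA x hx := by
    let W := Submodule.span F ({stdE 0, stdF 0} : Set V)
    let T : W → W := fun y => ⟨spEnd A y, hA _ y.2⟩
    have hT : Function.Injective T := fun y z hyz =>
      Subtype.ext (mulVec_injective A (congrArg Subtype.val hyz))
    obtain ⟨y, hy⟩ := Finite.surjective_of_injective hT ⟨x, hx⟩
    have hy' : spEnd A (y : V) = x := congrArg Subtype.val hy
    rw [← hy', spEnd_inv_apply]
    exact y.2

theorem covered_psp_six : Covered (Cfsg.PSp 3 F) := by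
  classical
  obtain ⟨P, hPm, hP, hPd⟩ := exists_irreducible_natDegree (F := F) 3
  haveI : Fact (Irreducible P) := ⟨hP⟩
  haveI : Module.Finite F (AdjoinRoot P) := (AdjoinRoot.powerBasis hP.ne_zero).finite
  haveI : Finite (AdjoinRoot P) := Module.finite_of_finite F
  have hL : finrank F (AdjoinRoot P) = 3 := by
    rw [(AdjoinRoot.powerBasis hP.ne_zero).finrank, AdjoinRoot.powerBasis_dim, hPd]
  obtain ⟨Φ, hΦ⟩ := exists_modelIso (L := AdjoinRoot P) hL
  refine covered_quotient _ (H := planeSp) (K := semiSp Φ) ?_ (center_le_semiSp Φ) ?_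
    (semiSp_ne_top hL Φ) fun g => ?_
  · intro A hA x hx
    rcases mem_center_iff.1 hA with h | h
    · rw [spEnd_apply, h, Matrix.one_mulVec]; exact hx
    · rw [spEnd_apply, h, Matrix.neg_mulVec, Matrix.one_mulVec]; exact neg_mem hx
  · intro h
    have h01 : B (stdE (0 : Fin 3)) (stdF 0) = 1 := by simp [form_stdE_stdF]
    have h11 : B (stdE (1 : Fin 3)) (stdF 1) = 1 := by simp [form_stdE_stdF]
    obtain ⟨A, hA, -⟩ := exists_symp_pair_eq (F := F) h01 h11
    have h1 := (h ▸ Subgroup.mem_top A : A ∈ planeSp) _ (Submodule.subset_span (Set.mem_insert _ _))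
    rw [spEnd_apply, hA] at h1
    obtain ⟨a, b, hab⟩ := Submodule.mem_span_pair.1 h1
    simpa [stdE, stdF] using congrFun hab (Sum.inr 1)
  rcases exists_cases hL hΦ g with ⟨x, y, hxy, hgx, hgy⟩ | ⟨h, hh⟩
  · have h01 : B (stdE (0 : Fin 3)) (stdF 0) = 1 := by simp [form_stdE_stdF]
    obtain ⟨A, hAx, hAy⟩ := exists_symp_pair_eq hxy h01
    refine ⟨A, Or.inl fun v hv => ?_⟩
    rw [map_mul, map_mul, Module.End.mul_apply, Module.End.mul_apply]
    obtain ⟨p, q, rfl⟩ := Submodule.mem_span_pair.1 hv
    have e : spEnd A⁻¹ (p • stdE 0 + q • stdF 0) = p • x + q • y := by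
      have : spEnd A (p • x + q • y) = p • stdE 0 + q • stdF 0 := by
        rw [map_add, map_smul, map_smul, spEnd_apply, spEnd_apply, hAx, hAy]
      rw [← this, spEnd_inv_apply]
    rw [e, map_add, map_smul, map_smul]
    have hmap : ∀ z ∈ Submodule.span F {x, y},
        spEnd A z ∈ Submodule.span F ({stdE 0, stdF 0} : Set V) := fun z hz => by
      obtain ⟨a, b, rfl⟩ := Submodule.mem_span_pair.1 hz
      rw [map_add, map_smul, map_smul, spEnd_apply, spEnd_apply, hAx, hAy]
      exact Submodule.mem_span_pair.2 ⟨a, b, rfl⟩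
    exact hmap _ (add_mem (Submodule.smul_mem _ _ hgx) (Submodule.smul_mem _ _ hgy))
  · exact ⟨h, Or.inr hh⟩

end CfsgLib.TwoClassCover.Six
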