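import Cfsg.Agent.TwoClassCover.Basic
import Cfsg.Agent.Classical.Symp.Simple

/-!
`PSp_{2m}(2^a)` is covered by the conjugates of two orthogonal groups.
-/

set_option autoImplicit false
set_option linter.style.haveILetI false

namespace CfsgLib.TwoClassCover

open Matrix CfsgLib.Classical.Symp

variable {F : Type*} [Field F] {m : ℕ}

local notation "V" => Fin m ⊕ Fin m → F
local notation "B" => Cfsg.sympForm m F
local notation "Mat" => Matrix (Fin m ⊕ Fin m) (Fin m ⊕ Fin m) F
local notation "Sp" => Matrix.symplecticGroup (Fin m) F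

/-- The quadratic forms polarising to the symplectic form in characteristic two. -/
def qForm (c x : V) : F := Cfsg.quadFormPlus m F x + B c x ^ 2

theorem quadPlus_add [CharP F 2] (u v : V) :
    Cfsg.quadFormPlus m F (u + v) = Cfsg.quadFormPlus m F u + Cfsg.quadFormPlus m F v + B u v := by
  rw [form_apply, Cfsg.quadFormPlus, Cfsg.quadFormPlus, Cfsg.quadFormPlus, ← Finset.sum_add_distrib,
    ← Finset.sum_add_distrib]
  refine Finset.sum_congr rfl fun i _ => ?_
  simp only [Pi.add_apply]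
  linear_combination (u (Sum.inl i) * v (Sum.inr i)) * CharTwo.two_eq_zero (R := F)

theorem quadPlus_smul (a : F) (u : V) :
    Cfsg.quadFormPlus m F (a • u) = a ^ 2 * Cfsg.quadFormPlus m F u := by
  simp only [Cfsg.quadFormPlus, Pi.smul_apply, smul_eq_mul, Finset.mul_sum]
  exact Finset.sum_congr rfl fun i _ => by ring

theorem qForm_add [CharP F 2] (c u v : V) : qForm c (u + v) = qForm c u + qForm c v + B u v := by
  rw [qForm, qForm, qForm, quadPlus_add, form_add_right, CharTwo.add_sq]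
  ring

theorem qForm_smul (c : V) (a : F) (u : V) : qForm c (a • u) = a ^ 2 * qForm c u := by
  rw [qForm, qForm, quadPlus_smul, form_smul_right]
  ring

/-- The orthogonal group of `qForm c`. -/
def formSub (c : V) : Subgroup Sp where
  carrier := {g | ∀ x, qForm c ((g : Mat) *ᵥ x) = qForm c x}
  one_mem' x := by simp
  mul_mem' {g h} hg hh x := by rw [mul_mulVec, hg, hh]
  inv_mem' {g} hg x := by rw [← hg, mulVec_inv_cancel]

theorem center_le_formSub [CharP F 2] (c : V) : Subgroup.center Sp ≤ formSub c := by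
  intro g hg x
  rcases mem_center_iff.1 hg with h | h
  · rw [h, Matrix.one_mulVec]
  · rw [h, Matrix.neg_mulVec, Matrix.one_mulVec,
      show -x = x from funext fun i => CharTwo.neg_eq _]

theorem exists_fixed_form [Fintype F] [CharP F 2] (g : Sp) : ∃ c : V, g ∈ formSub c := by
  have hadd : ∀ x y : V, Cfsg.quadFormPlus m F ((g : Mat) *ᵥ (x + y)) + Cfsg.quadFormPlus m F (x + y) =
      (Cfsg.quadFormPlus m F ((g : Mat) *ᵥ x) + Cfsg.quadFormPlus m F x) +
      (Cfsg.quadFormPlus m F ((g : Mat) *ᵥ y) + Cfsg.quadFormPlus m F y) := by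
    intro x y
    rw [Matrix.mulVec_add, quadPlus_add, quadPlus_add, form_mulVec]
    linear_combination (B x y) * CharTwo.two_eq_zero (R := F)
  let s : V →ₗ[F] F :=
    { toFun := fun x => (frobeniusEquiv F 2).symm
        (Cfsg.quadFormPlus m F ((g : Mat) *ᵥ x) + Cfsg.quadFormPlus m F x)
      map_add' := fun x y => by rw [hadd, map_add]
      map_smul' := fun a x => by
        rw [Matrix.mulVec_smul, quadPlus_smul, quadPlus_smul, ← mul_add, map_mul, RingHom.id_apply,
          smul_eq_mul]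
        congr 1
        exact (frobeniusEquiv F 2).symm_apply_eq.2 (frobeniusEquiv_apply F 2 a).symm }
  have hs : ∀ x, s x ^ 2 = Cfsg.quadFormPlus m F ((g : Mat) *ᵥ x) + Cfsg.quadFormPlus m F x := fun x => by
    exact (frobeniusEquiv F 2).apply_symm_apply _
  let D : V →ₗ[F] V := Matrix.toLin' (g : Mat) - LinearMap.id
  obtain ⟨μ, hμ⟩ : ∃ μ : Module.Dual F V, μ ∘ₗ D = s := by
    have h1 : s ∈ (LinearMap.ker D).dualAnnihilator := by
      refine (Submodule.mem_dualAnnihilator _).2 fun x hx => ?_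
      have hgx : (g : Mat) *ᵥ x = x := sub_eq_zero.1 (by simpa [D] using hx)
      have := hs x
      rw [hgx, CharTwo.add_self_eq_zero] at this
      exact eq_zero_of_pow_eq_zero this
    rw [← LinearMap.range_dualMap_eq_dualAnnihilator_ker] at h1
    exact h1
  let φ : V →ₗ[F] Module.Dual F V := LinearMap.mk₂ F B form_add_left form_smul_left form_add_right
    form_smul_right
  have hφ : Function.Injective φ := (injective_iff_map_eq_zero φ).2 fun u hu =>
    eq_zero_of_form_eq_zero fun v => by simpa [φ] using LinearMap.congr_fun hu v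
  obtain ⟨c, hc⟩ := (LinearMap.injective_iff_surjective_of_finrank_eq_finrank
    (Subspace.dual_finrank_eq.symm)).1 hφ μ
  refine ⟨c, fun x => ?_⟩
  have h1 : B c ((g : Mat) *ᵥ x) - B c x = s x := by
    rw [← hμ, ← form_sub_right, LinearMap.comp_apply, ← hc]
    simp [D, φ]
  rw [qForm, qForm]
  have h2 := hs x
  rw [← h1, sub_eq_add_neg, CharTwo.neg_eq, CharTwo.add_sq] at h2
  linear_combination -h2 + (B c ((g : Mat) *ᵥ x) ^ 2 - Cfsg.quadFormPlus m F x) *
    CharTwo.two_eq_zero (R := F)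

theorem qForm_spT [CharP F 2] (c a x : V) (l : F) :
    qForm c ((spT a l : Mat) *ᵥ x) = qForm c x + (l + l ^ 2 * qForm c a) * B a x ^ 2 := by
  rw [spT_mulVec, qForm_add, qForm_smul, form_smul_right, form_swap x a, CharTwo.neg_eq]
  linear_combination 0

theorem exists_transport [Fintype F] [CharP F 2] {c c' : V} {t : F}
    (ht : t + t ^ 2 = Cfsg.quadFormPlus m F c + Cfsg.quadFormPlus m F c') :
    ∃ h : Sp, ∀ x, qForm c ((h : Mat) *ᵥ x) = qForm c' x := by
  set b := B c c' with hb
  obtain ⟨l, hl⟩ : ∃ l : F, l + l ^ 2 * qForm c (c + c') = 1 := by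
    have hq : qForm c (c + c') = (t + b) + (t + b) ^ 2 := by
      rw [qForm, quadPlus_add, form_add_right, form_self, zero_add, CharTwo.add_sq, ← hb]
      linear_combination -ht
    rw [hq]
    generalize t + b = r
    by_cases h : r + r ^ 2 = 0
    · exact ⟨1, by rw [h]; ring⟩
    · refine ⟨r⁻¹, ?_⟩
      have hr : r ≠ 0 := fun e => h (by rw [e]; ring)
      field_simp
      linear_combination CharTwo.two_eq_zero (R := F)
  refine ⟨spT (c + c') l, fun x => ?_⟩
  rw [qForm_spT, hl, one_mul, qForm, qForm, form_add_left, CharTwo.add_sq]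
  linear_combination (B c x ^ 2) * CharTwo.two_eq_zero (R := F)

theorem formSub_ne_top [CharP F 2] (hm : 2 ≤ m) (c : V) : formSub c ≠ ⊤ := by
  intro h
  have h1 : ∀ a : V, a ≠ 0 → qForm c a = 1 := by
    intro a ha
    obtain ⟨v, hv⟩ := exists_form_eq_one ha
    have h2 := (h ▸ Subgroup.mem_top (spT a 1) : spT a 1 ∈ formSub c) v
    rw [qForm_spT, hv] at h2
    have h3 : 1 + qForm c a = 0 := by linear_combination h2
    exact (CharTwo.add_eq_zero.1 h3).symm
  have h01 : (⟨0, by omega⟩ : Fin m) ≠ ⟨1, by omega⟩ := by simp [Fin.ext_iff]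
  have e0 : (stdE ⟨0, by omega⟩ : V) ≠ 0 := fun e => by
    simpa [stdE] using congrFun e (Sum.inr ⟨0, by omega⟩)
  have e1 : (stdE ⟨1, by omega⟩ : V) ≠ 0 := fun e => by
    simpa [stdE] using congrFun e (Sum.inr ⟨1, by omega⟩)
  have e2 : (stdE ⟨0, by omega⟩ + stdE ⟨1, by omega⟩ : V) ≠ 0 := fun e => by
    simpa [stdE, Pi.single_apply, h01] using congrFun e (Sum.inr ⟨0, by omega⟩)
  have h4 := h1 _ e2
  rw [qForm_add, h1 _ e0, h1 _ e1, form_stdE_stdE, add_zero, CharTwo.add_self_eq_zero] at h4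
  exact zero_ne_one h4

theorem covered_psp_two [Fintype F] [CharP F 2] (hm : 2 ≤ m) : Covered (Cfsg.PSp m F) := by
  classical
  obtain ⟨ν, hν, hν'⟩ := exists_not_artinSchreier F
  let u : V := stdE ⟨0, by omega⟩ + ν • stdF ⟨0, by omega⟩
  have hu : Cfsg.quadFormPlus m F u = ν := by
    rw [Cfsg.quadFormPlus, Finset.sum_eq_single (⟨0, by omega⟩ : Fin m)
      (fun i _ hi => by simp [u, stdE, stdF, hi]) (by simp)]
    simp [u, stdE, stdF]
  refine covered_quotient _ (center_le_formSub 0) (center_le_formSub u) (formSub_ne_top hm 0)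
    (formSub_ne_top hm u) fun g => ?_
  obtain ⟨c, hc⟩ := exists_fixed_form g
  have key : ∀ c' : V, (∃ t, t + t ^ 2 = Cfsg.quadFormPlus m F c + Cfsg.quadFormPlus m F c') →
      ∃ x : Sp, x * g * x⁻¹ ∈ formSub c' := by
    rintro c' ⟨t, ht⟩
    obtain ⟨h, hh⟩ := exists_transport ht
    refine ⟨h⁻¹, fun x => ?_⟩
    rw [inv_inv, mul_mulVec, mul_mulVec, ← hh, mulVec_inv_cancel, hc, hh]
  by_cases hs : ∃ t, t + t ^ 2 = Cfsg.quadFormPlus m F c
  · obtain ⟨t, ht⟩ := hs
    obtain ⟨x, hx⟩ := key 0 ⟨t, by rw [ht]; simp [Cfsg.quadFormPlus]⟩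
    exact ⟨x, Or.inl hx⟩
  · push Not at hs
    obtain ⟨t, ht⟩ := hν' _ hs
    obtain ⟨x, hx⟩ := key u ⟨t, by rw [hu, ht]⟩
    exact ⟨x, Or.inr hx⟩

end CfsgLib.TwoClassCover
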