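import Cfsg.Agent.TwoClassCover.Unitary
import Cfsg.Agent.LinAlg.Witt.Std

/-!
`PSU₄(q)` is covered by the conjugates of the stabilisers of a non-isotropic point and of a totally
isotropic line.
-/

set_option autoImplicit false
set_option linter.style.haveILetI false

namespace CfsgLib.TwoClassCover

open Polynomial Module Matrix Cfsg CfsgLib.Unitary

universe u

variable {F : Type u} [Field F] [Fintype F] {q : ℕ}

omit [Fintype F] in
theorem finrank_span_pair {V : Type*} [AddCommGroup V] [Module F V] {x y : V} (hx : x ≠ 0)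
    (hy : y ∉ Submodule.span F {x}) : finrank F (Submodule.span F {x, y}) = 2 := by
  have hli : LinearIndependent F ![x, y] := LinearIndependent.pair_iff.2 fun a b h => by
    by_cases hb : b = 0
    · subst hb; simpa [hx] using h
    · refine absurd (Submodule.mem_span_singleton.2 ⟨-(b⁻¹ * a), ?_⟩) hy
      have h1 : b • y = -(a • x) := eq_neg_of_add_eq_zero_right h
      calc (-(b⁻¹ * a)) • x = b⁻¹ • (b • y) := by rw [h1, smul_neg, smul_smul, neg_smul]
        _ = y := inv_smul_smul₀ hb y
  have h1 := finrank_span_eq_card hli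
  rwa [Fintype.card_fin, Matrix.range_cons, Matrix.range_cons, Matrix.range_empty, Set.union_empty,
    Set.singleton_union] at h1

/-- An invariant totally isotropic plane. -/
def HasIsoPlane (A : ↥(SU 4 F q)) : Prop :=
  ∃ W : Submodule F (Fin 4 → F), finrank F W = 2 ∧
    (∀ x ∈ W, ∀ y ∈ W, hermForm 4 F q x y = 0) ∧ ∀ x ∈ W, sv A x ∈ W

theorem hasIsoPlane_pair (hF : Fintype.card F = q ^ 2) {A : ↥(SU 4 F q)} {x y : Fin 4 → F}
    (hx : x ≠ 0) (hy : y ∉ Submodule.span F {x}) (hxx : hermForm 4 F q x x = 0)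
    (hxy : hermForm 4 F q y x = 0) (hyy : hermForm 4 F q y y = 0)
    (hAx : sv A x ∈ Submodule.span F {x, y}) (hAy : sv A y ∈ Submodule.span F {x, y}) :
    HasIsoPlane A := by
  refine ⟨_, finrank_span_pair hx hy, fun a ha b hb => ?_, fun a ha => ?_⟩
  · obtain ⟨a1, a2, rfl⟩ := Submodule.mem_span_pair.1 ha
    obtain ⟨b1, b2, rfl⟩ := Submodule.mem_span_pair.1 hb
    simp [herm_add_left, herm_add_right hF, herm_smul_left, herm_smul_right, hxx, hxy, hyy,
      herm_eq_zero_comm hF hxy]
  · obtain ⟨a1, a2, rfl⟩ := Submodule.mem_span_pair.1 ha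
    rw [sv_add, sv_smul, sv_smul]
    exact add_mem (Submodule.smul_mem _ _ hAx) (Submodule.smul_mem _ _ hAy)

/-- An isotropic eigenvector leads to a non-isotropic one or to an isotropic plane. -/
theorem isotropic_eigen_case (hF : Fintype.card F = q ^ 2) {A : ↥(SU 4 F q)}
    (hne : ∀ (x : Fin 4 → F) (c : F), sv A x = c • x → hermForm 4 F q x x = 0)
    {v : Fin 4 → F} (hv0 : v ≠ 0) {l : F} (hv : sv A v = l • v) : HasIsoPlane A := by
  classical
  have hvv := hne v l hv
  have hq := two_le_q hF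
  have hl : l ≠ 0 := by
    rintro rfl
    rw [zero_smul] at hv
    exact hv0 (by rw [← sv_inv_sv A v, hv]; simp [sv])
  let M : Submodule F (Fin 4 → F) := LinearMap.ker (hermLeft q v)
  have hMdef : ∀ x, x ∈ M ↔ hermForm 4 F q x v = 0 := fun x => Iff.rfl
  have hM : ∀ x ∈ M, sv A x ∈ M := fun x hx => by
    have h1 := sv_herm A x v
    rw [hv, herm_smul_right, (hMdef x).1 hx] at h1
    exact (hMdef _).2 ((mul_eq_zero.1 h1).resolve_left (pow_ne_zero _ hl))
  obtain ⟨x0, hx0⟩ : ∃ x0, hermForm 4 F q x0 v = 1 := by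
    obtain ⟨f, -, -, hf⟩ := exists_partner hF (isNondeg_top hF) (trivial : v ∈ ⊤) hv0 hvv
    exact ⟨f, by rw [herm_conj hF, hf, one_pow]⟩
  have hMrank : finrank F M = 3 := by
    have h1 := LinearMap.finrank_range_add_finrank_ker (hermLeft (n := 4) q v)
    have h2 : LinearMap.range (hermLeft (n := 4) q v) = ⊤ := LinearMap.range_eq_top.2 fun c =>
      ⟨c • x0, by rw [map_smul]; show c * hermForm 4 F q x0 v = c; rw [hx0, mul_one]⟩
    rw [h2, finrank_top, finrank_self, Module.finrank_fin_fun] at h1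
    show finrank F (LinearMap.ker (hermLeft q v)) = 3
    omega
  set N := Submodule.span F {v} with hN
  have hNM : ∀ x ∈ N, ∀ y ∈ M, hermForm 4 F q x y = 0 := fun x hx y hy => by
    obtain ⟨c, rfl⟩ := Submodule.mem_span_singleton.1 hx
    rw [herm_smul_left, herm_eq_zero_comm hF ((hMdef y).1 hy), mul_zero]
  have hNA : ∀ x ∈ N, sv A x ∈ N := fun x hx => by
    obtain ⟨c, rfl⟩ := Submodule.mem_span_singleton.1 hx
    rw [sv_smul, hv, smul_smul]
    exact Submodule.smul_mem _ _ (Submodule.mem_span_singleton_self v)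
  have hNle : N ≤ M := (Submodule.span_singleton_le_iff_mem _ _).2 ((hMdef v).2 hvv)
  have hrad : ∀ z ∈ M, (∀ x ∈ M, hermForm 4 F q x z = 0) → z ∈ N := by
    intro z _ hz
    have h1 : ∀ x, hermForm 4 F q x (z - (hermForm 4 F q x0 z) ^ q • v) = 0 := fun x => by
      have hx : x - hermForm 4 F q x v • x0 ∈ M :=
        (hMdef _).2 (by rw [herm_sub_left, herm_smul_left, hx0, mul_one, sub_self])
      have h2 := hz _ hx
      rw [herm_sub_left, herm_smul_left] at h2
      rw [herm_sub_right hF, herm_smul_right, pow_q_q hF]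
      linear_combination h2
    have h3 : z - (hermForm 4 F q x0 z) ^ q • v = 0 :=
      herm_nondeg hF _ fun y => herm_eq_zero_comm hF (h1 y)
    rw [sub_eq_zero] at h3
    exact h3 ▸ Submodule.smul_mem _ _ (Submodule.mem_span_singleton_self v)
  -- an invariant plane through `v` inside `M`
  obtain ⟨w, hwM, hwN, μ, c, hw⟩ : ∃ w ∈ M, w ∉ N ∧ ∃ μ c : F, sv A w = μ • w + c • v := by
    obtain ⟨w, hwM, hwN⟩ : ∃ w ∈ M, w ∉ N := by
      by_contra! h
      have := Submodule.finrank_mono (show M ≤ N from h)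
      rw [hN, finrank_span_singleton hv0, hMrank] at this
      omega
    by_cases hd : sv A w ∈ Submodule.span F {w, v}
    · obtain ⟨a, b, hab⟩ := Submodule.mem_span_pair.1 hd
      exact ⟨w, hwM, hwN, a, b, hab.symm⟩
    have hind : ∀ a b : F, a • w + b • sv A w ∈ N → a = 0 ∧ b = 0 := by
      intro a b h
      obtain ⟨e, he⟩ := Submodule.mem_span_singleton.1 h
      by_cases hb : b = 0
      · subst hb
        rw [zero_smul, add_zero] at he
        refine ⟨by_contra fun ha => hwN (Submodule.mem_span_singleton.2 ⟨a⁻¹ * e, ?_⟩), rfl⟩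
        rw [mul_smul, he, inv_smul_smul₀ ha]
      · refine absurd (Submodule.mem_span_pair.2 ⟨-(b⁻¹ * a), b⁻¹ * e, ?_⟩) hd
        rw [mul_smul b⁻¹ e, he, smul_add, inv_smul_smul₀ hb, neg_smul, mul_smul]
        abel
    have hgen : M ≤ N ⊔ Submodule.span F {w, sv A w} := by
      have hle : N ⊔ Submodule.span F {w, sv A w} ≤ M := by
        refine sup_le hNle (Submodule.span_le.2 ?_)
        rintro _ (rfl | rfl)
        exacts [hwM, hM w hwM]
      refine (Submodule.eq_of_le_of_finrank_le hle ?_).ge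
      have hdisj : N ⊓ Submodule.span F {w, sv A w} = ⊥ := by
        rw [eq_bot_iff]
        rintro x ⟨hx1, hx2⟩
        obtain ⟨a, b, rfl⟩ := Submodule.mem_span_pair.1 hx2
        obtain ⟨rfl, rfl⟩ := hind a b hx1
        simp
      have h1 := Submodule.finrank_sup_add_finrank_inf_eq N (Submodule.span F {w, sv A w})
      rw [hdisj, finrank_bot, hN, finrank_span_singleton hv0,
        finrank_span_pair (fun h => hwN (by rw [h]; exact zero_mem _)) fun h => by
          obtain ⟨a, ha⟩ := Submodule.mem_span_singleton.1 h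
          exact hd (by rw [← ha]; exact Submodule.smul_mem _ _ (Submodule.subset_span (by simp)))] at h1
      rw [hMrank, hN]
      omega
    obtain ⟨y, hy, t, ht, hyt⟩ := Submodule.mem_sup.1 (hgen (hM _ (hM w hwM)))
    obtain ⟨a, b, rfl⟩ := Submodule.mem_span_pair.1 ht
    obtain ⟨r, hr⟩ := exists_root_quadratic hF A (s := -b) (d := -a) hNA hNM hM hwM hgen hrad hind
      (by
        rw [show sv A (sv A w) + -b • sv A w + -a • w = y by rw [← hyt]; module]
        exact hy)
    obtain ⟨e, rfl⟩ := Submodule.mem_span_singleton.1 hy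
    refine ⟨sv A w - (b - r) • w, M.sub_mem (hM w hwM) (M.smul_mem _ hwM), fun h => ?_, r, e, ?_⟩
    · exact one_ne_zero (hind (-(b - r)) 1 (by
        rw [show -(b - r) • w + (1 : F) • sv A w = sv A w - (b - r) • w by module]; exact h)).2
    · rw [sv_sub, sv_smul, ← hyt]
      have ha : a = r ^ 2 - b * r := by linear_combination -hr
      rw [ha]
      module
  by_cases hww : hermForm 4 F q w w = 0
  · exact hasIsoPlane_pair hF hv0 hwN hvv ((hMdef w).1 hwM) hww
      (by rw [hv]; exact Submodule.smul_mem _ _ (Submodule.subset_span (by simp)))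
      (by rw [hw]; exact Submodule.mem_span_pair.2 ⟨c, μ, by abel⟩)
  have hμl : μ = l := by
    by_contra hμ
    have hd : μ - l ≠ 0 := sub_ne_zero.2 hμ
    refine hww ?_
    have h1 := hne (w + (c / (μ - l)) • v) μ (by
      rw [sv_add, sv_smul, hw, hv, smul_add, smul_smul, smul_smul, add_assoc, ← add_smul]
      congr 2
      field_simp
      ring)
    simpa [herm_add_left, herm_add_right hF, herm_smul_left, herm_smul_right, hvv, (hMdef w).1 hwM,
      herm_eq_zero_comm hF ((hMdef w).1 hwM)] using h1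
  subst hμl
  let D : Submodule F (Fin 4 → F) := M ⊓ LinearMap.ker (hermLeft q w)
  obtain ⟨u, hu, huN⟩ : ∃ u ∈ D, u ∉ N := by
    by_contra! h
    have h1 := Submodule.finrank_mono (show D ≤ N from h)
    have h2 := Submodule.finrank_sup_add_finrank_inf_eq M (LinearMap.ker (hermLeft (n := 4) q w))
    have h3 := LinearMap.finrank_range_add_finrank_ker (hermLeft (n := 4) q w)
    have h4 := Submodule.finrank_le (LinearMap.range (hermLeft (n := 4) q w))
    have h5 := Submodule.finrank_le (M ⊔ LinearMap.ker (hermLeft (n := 4) q w))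
    rw [hN, finrank_span_singleton hv0] at h1
    rw [finrank_self] at h4
    rw [Module.finrank_fin_fun] at h3 h5
    change _ + finrank F D = _ at h2
    omega
  obtain ⟨huM, huw⟩ := Submodule.mem_inf.1 hu
  change hermForm 4 F q u w = 0 at huw
  have hAuw : hermForm 4 F q (sv A u) w = 0 := by
    have h1 := sv_herm A u w
    rw [hw, herm_add_right hF, herm_smul_right, herm_smul_right, (hMdef _).1 (hM u huM), huw,
      mul_zero, add_zero] at h1
    exact (mul_eq_zero.1 h1).resolve_left (pow_ne_zero _ hl)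
  have hgen : M ≤ Submodule.span F {v, u} ⊔ Submodule.span F {w} := by
    have hle : Submodule.span F {v, u} ⊔ Submodule.span F {w} ≤ M := by
      refine sup_le (Submodule.span_le.2 ?_) ((Submodule.span_singleton_le_iff_mem _ _).2 hwM)
      rintro _ (rfl | rfl)
      exacts [(hMdef _).2 hvv, huM]
    refine (Submodule.eq_of_le_of_finrank_le hle ?_).ge
    have h1 : Submodule.span F {v, u} < Submodule.span F {v, u} ⊔ Submodule.span F {w} := by
      refine lt_of_le_not_ge le_sup_left fun h => ?_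
      obtain ⟨a, b, hab⟩ := Submodule.mem_span_pair.1 (h (Submodule.mem_sup_right
        (Submodule.mem_span_singleton_self w)))
      refine hww ?_
      nth_rewrite 1 [← hab]
      rw [herm_add_left, herm_smul_left, herm_smul_left, huw,
        herm_eq_zero_comm hF ((hMdef w).1 hwM), mul_zero, mul_zero, add_zero]
    have h2 := Submodule.finrank_lt_finrank_of_lt h1
    rw [finrank_span_pair hv0 huN] at h2
    omega
  obtain ⟨t, ht, y, hy, hty⟩ := Submodule.mem_sup.1 (hgen (hM u huM))
  obtain ⟨c', ν, rfl⟩ := Submodule.mem_span_pair.1 ht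
  obtain ⟨b, rfl⟩ := Submodule.mem_span_singleton.1 hy
  have hb : b = 0 := by
    rw [← hty, herm_add_left, herm_add_left, herm_smul_left, herm_smul_left, herm_smul_left, huw,
      herm_eq_zero_comm hF ((hMdef w).1 hwM)] at hAuw
    simp only [mul_zero, zero_add] at hAuw
    exact (mul_eq_zero.1 hAuw).resolve_right hww
  subst hb
  rw [zero_smul, add_zero] at hty
  by_cases huu : hermForm 4 F q u u = 0
  · exact hasIsoPlane_pair hF hv0 huN hvv ((hMdef u).1 huM) huu
      (by rw [hv]; exact Submodule.smul_mem _ _ (Submodule.subset_span (by simp)))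
      (Submodule.mem_span_pair.2 ⟨c', ν, hty⟩)
  have hνl : ν = μ := by
    by_contra hν
    have hd : ν - μ ≠ 0 := sub_ne_zero.2 hν
    refine huu ?_
    have h1 := hne (u + (c' / (ν - μ)) • v) ν (by
      rw [sv_add, sv_smul, ← hty, hv, smul_add, smul_smul, smul_smul, add_comm (c' • v), add_assoc,
        ← add_smul]
      congr 2
      field_simp
      ring)
    simpa [herm_add_left, herm_add_right hF, herm_smul_left, herm_smul_right, hvv, (hMdef u).1 huM,
      herm_eq_zero_comm hF ((hMdef u).1 huM)] using h1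
  subst hνl
  obtain ⟨ρ, hρ⟩ := exists_norm_eq hF (a := -(hermForm 4 F q w w) / hermForm 4 F q u u)
    (by rw [div_pow, neg_pow_q hF, herm_self_fixed hF, herm_self_fixed hF])
  refine hasIsoPlane_pair hF hv0 (y := w + ρ • u) (fun h => ?_) hvv ?_ ?_
    (by rw [hv]; exact Submodule.smul_mem _ _ (Submodule.subset_span (by simp))) ?_
  · obtain ⟨a, ha⟩ := Submodule.mem_span_singleton.1 h
    have h1 := congrArg (fun z => hermForm 4 F q z w) ha
    simp only [herm_add_left, herm_smul_left, huw, herm_eq_zero_comm hF ((hMdef w).1 hwM), mul_zero,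
      add_zero] at h1
    exact hww h1.symm
  · rw [herm_add_left, herm_smul_left, (hMdef w).1 hwM, (hMdef u).1 huM, mul_zero, add_zero]
  · rw [herm_add_left, herm_smul_left, herm_add_right hF, herm_add_right hF, herm_smul_right,
      herm_smul_right, huw, herm_eq_zero_comm hF huw]
    rw [eq_div_iff huu] at hρ
    linear_combination hρ
  · refine Submodule.mem_span_pair.2 ⟨c + ρ * c', ν, ?_⟩
    rw [sv_add, sv_smul, hw, ← hty]
    module

theorem exists_cases_four (hF : Fintype.card F = q ^ 2) (A : ↥(SU 4 F q)) :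
    (∃ (x : Fin 4 → F) (c : F), sv A x = c • x ∧ hermForm 4 F q x x ≠ 0) ∨ HasIsoPlane A := by
  classical
  refine or_iff_not_imp_left.2 fun hno => ?_
  push Not at hno
  by_cases hev : ∃ (v : Fin 4 → F) (c : F), v ≠ 0 ∧ sv A v = c • v
  · obtain ⟨v, c, hv0, hv⟩ := hev
    exact isotropic_eigen_case hF hno hv0 hv
  push Not at hev
  obtain ⟨P, hP, hPm, x, hx0, hPx⟩ :=
    CfsgLib.Classical.Semisimple.exists_monic_irreducible_apply (suEnd A)
  have hχ : (suEnd A).charpoly = (A : Matrix (Fin 4) (Fin 4) F).charpoly :=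
    Matrix.charpoly_toLin' _
  have hroot : ∀ r, ¬ (suEnd A).charpoly.IsRoot r := fun r hr => by
    obtain ⟨v, hv⟩ := ((Module.End.hasEigenvalue_iff_isRoot_charpoly _ _).2 hr).exists_hasEigenvector
    exact hev v r hv.2 hv.apply_eq_smul
  have hdvd : P ∣ (suEnd A).charpoly := by
    by_contra hnd
    obtain ⟨a, b, hab⟩ := (hP.coprime_iff_not_dvd.2 hnd)
    have h1 := congrArg (fun p : F[X] => aeval (suEnd A) p x) hab
    simp only [map_add, map_mul, LinearMap.add_apply, Module.End.mul_apply, hPx, map_zero,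
      LinearMap.aeval_self_charpoly, LinearMap.zero_apply, map_one, Module.End.one_apply,
      zero_add] at h1
    exact hx0 h1.symm
  have hP1 : P.natDegree ≠ 1 := fun h => by
    obtain ⟨r, hr⟩ := Polynomial.exists_root_of_degree_eq_one (p := P)
      (by rw [Polynomial.degree_eq_natDegree hP.ne_zero, h]; rfl)
    exact hroot r (hr.dvd hdvd)
  obtain ⟨R, hR⟩ := hdvd
  have hR0 : R ≠ 0 := by
    rintro rfl
    exact (suEnd A).charpoly_monic.ne_zero (by rw [hR, mul_zero])
  have hdeg := Polynomial.natDegree_mul hP.ne_zero hR0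
  rw [← hR, LinearMap.charpoly_natDegree, Module.finrank_fin_fun] at hdeg
  have hR1 : R.natDegree ≠ 1 := fun h => by
    obtain ⟨r, hr⟩ := Polynomial.exists_root_of_degree_eq_one (p := R)
      (by rw [Polynomial.degree_eq_natDegree hR0, h]; rfl)
    exact hroot r (hr.dvd ⟨P, hR.trans (mul_comm P R)⟩)
  have hP4 : P.natDegree ≠ 4 := fun h => by
    have hPχ : P = (A : Matrix (Fin 4) (Fin 4) F).charpoly := by
      rw [← hχ]
      exact (Polynomial.eq_of_monic_of_dvd_of_natDegree_le hPm (suEnd A).charpoly_monic ⟨R, hR⟩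
        (by rw [LinearMap.charpoly_natDegree, Module.finrank_fin_fun, h])).symm
    have hodd : Odd P.natDegree := odd_natDegree hF hP hPm fun L _ _ α hα => by
      rw [hPχ] at hα ⊢
      exact aeval_charpoly_inv hF A L α hα
    rw [h] at hodd
    exact absurd hodd (by decide)
  have hP2 : P.natDegree = 2 := by
    have := hP.natDegree_pos
    omega
  have hrel : sv A (sv A x) + P.coeff 1 • sv A x + P.coeff 0 • x = 0 := by
    have hPe : P = X ^ 2 + C (P.coeff 1) * X + C (P.coeff 0) := by
      conv_lhs => rw [hPm.as_sum, hP2]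
      simp [Finset.sum_range_succ]
      ring
    rw [hPe] at hPx
    simpa [map_add, map_mul, Module.End.mul_apply, pow_two, suEnd_apply,
      Module.algebraMap_end_apply, sv_smul] using hPx
  have hxN : sv A x ∉ Submodule.span F {x} := fun h => by
    obtain ⟨c, hc⟩ := Submodule.mem_span_singleton.1 h
    exact hev x c hx0 hc.symm
  set W := Submodule.span F {x, sv A x} with hW
  have hxW : x ∈ W := Submodule.subset_span (by simp)
  have hWA : ∀ y ∈ W, sv A y ∈ W := fun y hy => by
    obtain ⟨a, b, rfl⟩ := Submodule.mem_span_pair.1 hy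
    rw [sv_add, sv_smul, sv_smul]
    refine W.add_mem (W.smul_mem _ (Submodule.subset_span (by simp))) (W.smul_mem _ ?_)
    refine Submodule.mem_span_pair.2 ⟨-(P.coeff 0), -(P.coeff 1), ?_⟩
    linear_combination (norm := module) -hrel
  have hWr : finrank F W = 2 := finrank_span_pair hx0 hxN
  by_cases hzero : ∀ a ∈ W, ∀ b ∈ W, hermForm 4 F q a b = 0
  · exact ⟨W, hWr, hzero, hWA⟩
  have hrad : ∀ z ∈ W, (∀ a ∈ W, hermForm 4 F q a z = 0) → z ∈ (⊥ : Submodule F (Fin 4 → F)) := by
    intro z hz hzr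
    rw [Submodule.mem_bot]
    by_contra hz0
    refine hzero fun a ha b hb => ?_
    have hAzr : ∀ a ∈ W, hermForm 4 F q a (sv A z) = 0 := fun a ha => by
      rw [← sv_sv_inv A a, sv_herm]
      exact hzr _ ((spaceSub W).inv_mem (show A ∈ spaceSub W from hWA) a ha)
    have hWe : W = Submodule.span F {z, sv A z} := by
      refine (Submodule.eq_of_le_of_finrank_le (Submodule.span_le.2 ?_) ?_).symm
      · rintro _ (rfl | rfl)
        exacts [hz, hWA z hz]
      · rw [hWr, finrank_span_pair hz0 fun h => ?_]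
        obtain ⟨c, hc⟩ := Submodule.mem_span_singleton.1 h
        exact hev z c hz0 hc.symm
    rw [hWe] at hb
    obtain ⟨b1, b2, rfl⟩ := Submodule.mem_span_pair.1 hb
    rw [herm_add_right hF, herm_smul_right, herm_smul_right, hzr a ha, hAzr a ha]
    ring
  obtain ⟨r, hr⟩ := exists_root_quadratic hF A (N := ⊥) (M := W)
    (fun y hy => by rw [(Submodule.mem_bot F).1 hy]; simp [sv])
    (fun y hy z _ => by rw [(Submodule.mem_bot F).1 hy, herm_zero_left])
    hWA hxW le_sup_right hrad (fun a b h => by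
      rw [Submodule.mem_bot] at h
      by_cases hb : b = 0
      · subst hb; simpa [hx0] using h
      · refine absurd (Submodule.mem_span_singleton.2 ⟨-(b⁻¹ * a), ?_⟩) hxN
        calc (-(b⁻¹ * a)) • x = b⁻¹ • (b • sv A x) := by
              rw [eq_neg_of_add_eq_zero_right h, smul_neg, smul_smul, neg_smul]
          _ = _ := inv_smul_smul₀ hb _)
    (s := P.coeff 1) (d := P.coeff 0) (by rw [hrel]; exact zero_mem _)
  refine absurd hr fun hr => hroot r (IsRoot.dvd ?_ ⟨R, hR⟩)
  rw [IsRoot.def, hPm.as_sum, hP2]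
  simp only [Finset.sum_range_succ, Finset.sum_range_zero, eval_add, eval_pow, eval_X, eval_mul,
    eval_C, eval_zero, eval_one, pow_zero, pow_one]
  linear_combination hr

/-- Reference totally isotropic plane. -/
def isoPlane (l : F) : Submodule F (Fin 4 → F) := Submodule.span F {![1, l, 0, 0], ![0, 0, 1, l]}

theorem exists_GU_fix_plane (hF : Fintype.card F = q ^ 2) {l : F} (hl : l ^ (q + 1) = -1)
    {t : F} (ht : t ^ (q + 1) = 1) :
    ∃ M : GL (Fin 4) F, M ∈ GU 4 F q ∧ (M : Matrix (Fin 4) (Fin 4) F).det = t ∧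
      ∀ x ∈ isoPlane l, (M : Matrix (Fin 4) (Fin 4) F) *ᵥ x ∈ isoPlane l := by
  classical
  have hq := two_le_q hF
  obtain ⟨l', hl', hne⟩ : ∃ l' : F, l' ^ (q + 1) = -1 ∧ l' ≠ l := by
    obtain ⟨u, hu, hu1⟩ := exists_norm_one_ne_inv hF
    refine ⟨u * l, by rw [mul_pow, hu, one_mul, hl], fun h => hu1 ?_⟩
    have hl0 : l ≠ 0 := by
      rintro rfl
      rw [zero_pow (by omega)] at hl
      exact one_ne_zero (neg_eq_zero.1 hl.symm)
    rw [mul_left_eq_self₀] at h
    rw [h.resolve_right hl0, one_pow]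
  obtain ⟨a, ha0, hat⟩ : ∃ a : F, a ≠ 0 ∧ a = t * a ^ q := by
    obtain ⟨c, hc⟩ : ∃ c : F, c + t * c ^ q ≠ 0 := by
      by_contra! h
      have h1 := h 1
      rw [one_pow, mul_one] at h1
      have hfix : ∀ c : F, c ^ q = c := fun c => by linear_combination (c ^ q) * h1 - h c
      have h2 := card_fixed hF
      rw [Nat.card_congr (Equiv.subtypeUnivEquiv hfix), Nat.card_eq_fintype_card, hF] at h2
      nlinarith
    refine ⟨c + t * c ^ q, hc, ?_⟩
    rw [add_pow_q hF, mul_pow, pow_q_q hF]
    have ht' : t * t ^ q = 1 := by rw [← pow_succ', ht]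
    linear_combination (-c) * ht'
  set b := (a ^ q)⁻¹ with hb
  set D := l' - l with hD
  have hD0 : D ≠ 0 := sub_ne_zero.2 hne
  set m00 := (a * l' - b * l) / D
  set m01 := (b - a) / D
  set m10 := l * l' * (a - b) / D
  set m11 := (b * l' - a * l) / D
  let Mt : Matrix (Fin 4) (Fin 4) F := !![m00, m01, 0, 0; m10, m11, 0, 0; 0, 0, 1, 0; 0, 0, 0, 1]
  have hdet : Mt.det = t := by
    rw [show Mt.det = m00 * m11 - m01 * m10 by
      simp [Mt, Matrix.det_succ_row_zero, Fin.sum_univ_succ, Fin.succAbove]; ring]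
    have h1 : a * b = t := by
      rw [hb, ← div_eq_mul_inv, div_eq_iff (pow_ne_zero _ ha0), ← hat]
    simp only [m00, m01, m10, m11]
    rw [← h1]
    field_simp
    ring
  have ht0 : t ≠ 0 := by
    rintro rfl
    rw [zero_pow (by omega)] at ht
    exact zero_ne_one ht
  have hpres : ∀ u v, hermForm 4 F q (Mt *ᵥ u) (Mt *ᵥ v) = hermForm 4 F q u v := by
    intro u v
    have hdec : ∀ w : Fin 4 → F, ∃ p r : F, w 0 = p + r ∧ w 1 = l * p + l' * r ∧
        (Mt *ᵥ w) 0 = a * p + b * r ∧ (Mt *ᵥ w) 1 = a * l * p + b * l' * r ∧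
        (Mt *ᵥ w) 2 = w 2 ∧ (Mt *ᵥ w) 3 = w 3 := fun w => by
      refine ⟨(l' * w 0 - w 1) / D, (w 1 - l * w 0) / D, ?_, ?_, ?_, ?_, ?_, ?_⟩
      · field_simp; rw [hD]; ring
      · field_simp; rw [hD]; ring
      · simp [Mt, Matrix.mulVec, dotProduct, Fin.sum_univ_four, m00, m01]; field_simp; ring
      · simp [Mt, Matrix.mulVec, dotProduct, Fin.sum_univ_four, m10, m11]; field_simp; ring
      · simp [Mt, Matrix.mulVec, dotProduct, Fin.sum_univ_four]
      · simp [Mt, Matrix.mulVec, dotProduct, Fin.sum_univ_four]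
    obtain ⟨p, r, h0, h1, h2, h3, h4, h5⟩ := hdec u
    obtain ⟨p', r', h0', h1', h2', h3', h4', h5'⟩ := hdec v
    simp only [hermForm, Fin.sum_univ_four, h0, h1, h2, h3, h4, h5, h0', h1', h2', h3', h4', h5',
      add_pow_q hF, mul_pow]
    have hab : a * b ^ q = 1 := by
      rw [hb, inv_pow_q, pow_q_q hF, mul_inv_cancel₀ ha0]
    have hba : b * a ^ q = 1 := by rw [hb, inv_mul_cancel₀ (pow_ne_zero _ ha0)]
    have hll : l * l ^ q = -1 := by rw [← pow_succ', hl]
    have hll' : l' * l' ^ q = -1 := by rw [← pow_succ', hl']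
    linear_combination (p * r' ^ q * (1 + l * l' ^ q)) * hab + (r * p' ^ q * (1 + l' * l ^ q)) * hba +
      (p * p' ^ q * (a * a ^ q - 1)) * hll + (r * r' ^ q * (b * b ^ q - 1)) * hll'
  refine ⟨GeneralLinearGroup.mkOfDetNeZero Mt (hdet ▸ ht0), hpres, hdet, fun x hx => ?_⟩
  show Mt *ᵥ x ∈ _
  obtain ⟨c, e, rfl⟩ := Submodule.mem_span_pair.1 hx
  refine Submodule.mem_span_pair.2 ⟨c * a, e, ?_⟩
  funext i
  fin_cases i <;> simp [Mt, Matrix.mulVec, dotProduct, Fin.sum_univ_four, m00, m01, m10, m11] <;>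
    field_simp <;> (try rw [hD]) <;> ring

theorem exists_to_isoPlane (hF : Fintype.card F = q ^ 2) {l : F} (hl : l ^ (q + 1) = -1)
    {W : Submodule F (Fin 4 → F)} (hW : finrank F W = 2)
    (hiso : ∀ x ∈ W, ∀ y ∈ W, hermForm 4 F q x y = 0) :
    ∃ A : ↥(SU 4 F q), ∀ x ∈ W, sv A x ∈ isoPlane l := by
  classical
  have hl' : l * l ^ q = -1 := by rw [← pow_succ', hl]
  have h0 : ∀ x ∈ isoPlane l, ∀ y ∈ isoPlane l, hermForm 4 F q x y = 0 := by
    intro x hx y hy
    obtain ⟨a, b, rfl⟩ := Submodule.mem_span_pair.1 hx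
    obtain ⟨c, e, rfl⟩ := Submodule.mem_span_pair.1 hy
    simp [hermForm, Fin.sum_univ_four, mul_pow]
    linear_combination (a * c ^ q + b * e ^ q) * hl'
  have hP : finrank F (isoPlane l) = 2 := finrank_span_pair
    (fun h => by simpa using congrFun h 0) fun h => by
      obtain ⟨c, hc⟩ := Submodule.mem_span_singleton.1 h
      simpa using (congrFun hc 2).symm
  let e : W ≃ₗ[F] isoPlane l := LinearEquiv.ofFinrankEq _ _ (hW.trans hP.symm)
  obtain ⟨g, hg, hge⟩ := CfsgLib.LinAlg.Witt.witt_GU hF W ((isoPlane l).subtype ∘ₗ e.toLinearMap)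
    ((isoPlane l).subtype_injective.comp e.injective)
    (fun x y => by rw [hiso _ x.2 _ y.2]; exact h0 _ (e x).2 _ (e y).2)
  have hd := det_pow_succ_eq_one hF hg
  obtain ⟨M, hM, hMd, hMW⟩ := exists_GU_fix_plane hF hl
    (t := ((g : Matrix (Fin 4) (Fin 4) F).det)⁻¹) (by rw [inv_pow, hd, inv_one])
  have hd0 : (g : Matrix (Fin 4) (Fin 4) F).det ≠ 0 := by
    intro h
    rw [h, zero_pow (Nat.succ_ne_zero q)] at hd
    exact zero_ne_one hd
  refine ⟨⟨⟨(M : Matrix (Fin 4) (Fin 4) F) * (g : Matrix (Fin 4) (Fin 4) F), by rw [det_mul, hMd, inv_mul_cancel₀ hd0]⟩,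
    mem_SU.2 fun u v => ?_⟩, fun x hx => ?_⟩
  · rw [← mulVec_mulVec, ← mulVec_mulVec, mem_GU.1 hM]; exact hg u v
  · show ((M : Matrix (Fin 4) (Fin 4) F) * (g : Matrix (Fin 4) (Fin 4) F)) *ᵥ x ∈ _
    rw [← mulVec_mulVec, show (g : Matrix (Fin 4) (Fin 4) F) *ᵥ x = e ⟨x, hx⟩ from hge ⟨x, hx⟩]
    exact hMW _ (e ⟨x, hx⟩).2

theorem covered_psu_four (hF : Fintype.card F = q ^ 2) : Covered (PSU 4 F q) := by
  classical
  have hq := two_le_q hF
  obtain ⟨l, hl⟩ := exists_norm_eq hF (a := (-1 : F)) (by rw [neg_pow_q hF, one_pow])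
  have hl0 : l ≠ 0 := by
    rintro rfl
    rw [zero_pow (by omega)] at hl
    exact one_ne_zero (neg_eq_zero.1 hl.symm)
  let f : Fin 1 → Fin 4 → F := fun _ => Pi.single 0 1
  have hf : Orthonorm q f := fun i j => by simp [f, herm_single_single hF, Subsingleton.elim i j]
  let L : Submodule F (Fin 4 → F) := Submodule.span F {Pi.single 0 1}
  obtain ⟨T, hT⟩ := exists_SU_map_orthonorm hF hf (f' := fun _ : Fin 1 => Pi.single (2 : Fin 4) 1)
    (fun i j => by simp [herm_single_single hF, Subsingleton.elim i j]) (by norm_num)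
  refine covered_quotient _ (center_le_spaceSub hF (by norm_num) L)
    (center_le_spaceSub hF (by norm_num) (isoPlane l)) (fun h => ?_) (fun h => ?_) fun g => ?_
  · have h1 := (h ▸ Subgroup.mem_top T : T ∈ spaceSub L) _ (Submodule.mem_span_singleton_self _)
    rw [hT 0] at h1
    obtain ⟨c, hc⟩ := Submodule.mem_span_singleton.1 h1
    simpa using congrFun hc 2
  · obtain ⟨B, hB, hBv⟩ := exists_swap_mem_SU (n := 4) hF (i := 1) (k := 3) (by decide)
    have h1 := (h ▸ Subgroup.mem_top _ : (⟨B, hB⟩ : ↥(SU 4 F q)) ∈ spaceSub (isoPlane l))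
      ![1, l, 0, 0] (Submodule.subset_span (by simp))
    obtain ⟨a, b, hab⟩ := Submodule.mem_span_pair.1 h1
    rw [sv, hBv] at hab
    have e0 := congrFun hab 0
    have e1 := congrFun hab 1
    simp [monoMat_mulVec, Equiv.swap_apply_def, Function.update] at e0 e1
    simp [e0, hl0] at e1
  · rcases exists_cases_four hF g with ⟨x, c, hx, hxx⟩ | ⟨W, hWr, hiso, hWA⟩
    · obtain ⟨s, hs⟩ := exists_norm_eq hF (a := (hermForm 4 F q x x)⁻¹)
        (by rw [inv_pow_q, herm_self_fixed hF])
      obtain ⟨A, hA⟩ := exists_SU_map_orthonorm hF (f := fun _ : Fin 1 => s • x)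
        (fun i j => by simp [herm_self_smul, hs, inv_mul_cancel₀ hxx, Subsingleton.elim i j]) hf
        (by norm_num)
      have hA0 : sv A (s • x) = Pi.single 0 1 := hA 0
      refine ⟨A, Or.inl fun y hy => ?_⟩
      obtain ⟨a, rfl⟩ := Submodule.mem_span_singleton.1 hy
      have hinv : sv A⁻¹ (Pi.single (0 : Fin 4) 1) = s • x := by rw [← hA0, sv_inv_sv]
      rw [sv_smul, sv_mul, sv_mul, hinv, sv_smul, hx, smul_comm s c, sv_smul, hA0, smul_smul]
      exact Submodule.smul_mem _ _ (Submodule.mem_span_singleton_self _)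
    · obtain ⟨A, hA⟩ := exists_to_isoPlane hF hl hWr hiso
      refine ⟨A, Or.inr fun y hy => ?_⟩
      rw [sv_mul, sv_mul]
      have hP : finrank F (isoPlane l) ≤ finrank F W := by
        rw [hWr]
        have := finrank_span_le_card (R := F) ({![1, l, 0, 0], ![0, 0, 1, l]} : Set (Fin 4 → F))
        refine this.trans ?_
        simp only [Set.toFinset_insert, Set.toFinset_singleton]
        exact Finset.card_le_two
      let T : W →ₗ[F] isoPlane l :=
        LinearMap.codRestrict _ ((Matrix.toLin' (A : Matrix (Fin 4) (Fin 4) F)) ∘ₗ W.subtype)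
          fun w => hA _ w.2
      have hTi : Function.Injective T := fun u v huv => Subtype.ext <| by
        have h1 : sv A (u : Fin 4 → F) = sv A (v : Fin 4 → F) := congrArg Subtype.val huv
        rw [← sv_inv_sv A (u : Fin 4 → F), h1, sv_inv_sv]
      have hTs : Function.Surjective T := (LinearMap.injective_iff_surjective_of_finrank_eq_finrank
        (le_antisymm (LinearMap.finrank_le_finrank_of_injective hTi) hP)).1 hTi
      obtain ⟨w, hw⟩ := hTs ⟨y, hy⟩
      have hw' : sv A (w : Fin 4 → F) = y := congrArg Subtype.val hw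
      rw [← hw', sv_inv_sv]
      exact hA _ (hWA _ w.2)

end CfsgLib.TwoClassCover
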