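import Cfsg.Agent.TwoClassCover.Unitary
import Cfsg.Agent.LinAlg.Witt.Bases

/-!
`PSU₃(3^a)` is covered by the conjugates of the stabiliser of a non-isotropic point and of the
normaliser of a Singer torus, which contains the regular unipotent elements.
-/

set_option autoImplicit false
set_option linter.style.haveILetI false

namespace CfsgLib.TwoClassCover

open Polynomial Module Matrix Cfsg CfsgLib.Unitary

universe u

variable {F : Type u} [Field F] [Fintype F] {q : ℕ}

section Ext

variable {L : Type u} [Field L] [Algebra F L] [Finite L]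

theorem algebraMap_eq_of_fixed (hL : finrank F L = 3) {ψ : L ≃ₐ[F] L} (hψ : ψ ≠ 1) {z : L}
    (hz : ψ z = z) : z ∈ (⊥ : IntermediateField F L) := by
  haveI : Module.Finite F L := Module.Finite.of_finite
  haveI : Fact (Nat.Prime 3) := ⟨Nat.prime_three⟩
  have hcard : Nat.card (L ≃ₐ[F] L) = 3 := by rw [IsGalois.card_aut_eq_finrank, hL]
  refine (IsGalois.mem_bot_iff_fixed z).2 fun σ => ?_
  have hle : Subgroup.zpowers ψ ≤ MulAction.stabilizer (L ≃ₐ[F] L) z :=
    Subgroup.zpowers_le.2 (show ψ • z = z from hz)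
  rw [zpowers_eq_top_of_prime_card hcard hψ] at hle
  exact hle (Subgroup.mem_top σ)

/-- A non-trivial automorphism of a cubic extension is not unipotent of index two. -/
theorem exists_sq_sub_ne_zero (hL : finrank F L = 3) {ψ : L ≃ₐ[F] L} (hψ : ψ ≠ 1) :
    ∃ z, ψ (ψ z - z) - (ψ z - z) ≠ 0 := by
  by_contra! h
  haveI : Module.Finite F L := Module.Finite.of_finite
  let D : L →ₗ[F] L := ψ.toLinearMap - LinearMap.id
  let W : Submodule F L := Subalgebra.toSubmodule (⊥ : IntermediateField F L).toSubalgebra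
  have hW : finrank F W = 1 := by
    show finrank F (⊥ : IntermediateField F L) = 1
    exact IntermediateField.finrank_bot
  have h1 : LinearMap.range D ≤ W := by
    rintro _ ⟨z, rfl⟩
    exact algebraMap_eq_of_fixed hL hψ (sub_eq_zero.1 (h z))
  have h2 : LinearMap.ker D ≤ W := fun z hz =>
    algebraMap_eq_of_fixed hL hψ (sub_eq_zero.1 hz)
  have h3 := Submodule.finrank_mono h1
  have h4 := Submodule.finrank_mono h2
  have h5 := LinearMap.finrank_range_add_finrank_ker D
  rw [hW] at h3 h4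
  omega

theorem card_ext (hF : Fintype.card F = q ^ 2) (hL : finrank F L = 3) :
    Nat.card L = (q ^ 3) ^ 2 := by
  rw [Module.natCard_eq_pow_finrank (K := F), hL, Nat.card_eq_fintype_card, hF, ← pow_mul, ← pow_mul]

theorem pow_cube_pow_cube (hF : Fintype.card F = q ^ 2) (hL : finrank F L = 3) (x : L) :
    (x ^ q ^ 3) ^ q ^ 3 = x := by
  haveI := Fintype.ofFinite L
  rw [← pow_mul, ← sq, ← card_ext (L := L) hF hL, Nat.card_eq_fintype_card, FiniteField.pow_card]

theorem trace_pow_q' (hF : Fintype.card F = q ^ 2) (hL : finrank F L = 3) (z : L) :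
    Algebra.trace F L z ^ q = Algebra.trace F L (z ^ q ^ 3) := by
  obtain ⟨p, e, hp, hcp, -, rfl⟩ := exists_char hF
  haveI := Fact.mk hp
  haveI : CharP L p := charP_of_injective_algebraMap (algebraMap F L).injective p
  haveI := Fintype.ofFinite L
  have hper : ∀ x : L, (x ^ (p ^ e) ^ 3) ^ (p ^ e) ^ 3 = x := pow_cube_pow_cube hF hL
  refine (algebraMap F L).injective ?_
  rw [map_pow, FiniteField.algebraMap_trace_eq_sum_pow, FiniteField.algebraMap_trace_eq_sum_pow,
    Nat.card_eq_fintype_card, hF, hL]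
  simp only [Finset.sum_range_succ, Finset.sum_range_zero, zero_add, add_pow_char_pow]
  generalize hQ : p ^ e = Q at hper ⊢
  have h7 : (z ^ Q ^ 3) ^ (Q ^ 2) ^ 2 = z ^ Q := by
    conv_rhs => rw [← hper z]
    simp only [← pow_mul]
    congr 1
    ring
  rw [h7]
  simp only [← pow_mul]
  ring_nf

/-- The hermitian form on the cubic extension, semilinear in the first variable. -/
noncomputable def traceHerm (hF : Fintype.card F = q ^ 2) (L : Type u) [Field L] [Algebra F L]
    [Finite L] : L →ₛₗ[conjHom hF] L →ₗ[F] F :=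
  LinearMap.mk₂'ₛₗ (conjHom hF) (RingHom.id F) (fun x y => Algebra.trace F L (x ^ q ^ 3 * y))
    (fun x x' y => by
      obtain ⟨p, e, hp, hcp, -, rfl⟩ := exists_char hF
      haveI := Fact.mk hp
      haveI : CharP L p := charP_of_injective_algebraMap (algebraMap F L).injective p
      rw [← pow_mul, add_pow_char_pow, pow_mul, add_mul, map_add])
    (fun c x y => by
      have hc : c ^ q ^ 3 = c ^ q := by
        rw [show q ^ 3 = q * q ^ 2 by ring, pow_mul, ← hF, FiniteField.pow_card]
      show _ = c ^ q * _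
      rw [Algebra.smul_def, mul_pow, ← map_pow, hc, mul_assoc, ← Algebra.smul_def, map_smul,
        smul_eq_mul])
    (fun x y y' => by rw [mul_add, map_add])
    (fun c x y => by rw [mul_smul_comm, map_smul]; rfl)

theorem traceHerm_apply (hF : Fintype.card F = q ^ 2) (x y : L) :
    traceHerm hF L x y = Algebra.trace F L (x ^ q ^ 3 * y) := rfl

/-- An isometry from the cubic extension onto the standard hermitian space. -/
theorem exists_traceIsometry (hF : Fintype.card F = q ^ 2) (hL : finrank F L = 3) :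
    ∃ Φ : L ≃ₗ[F] (Fin 3 → F), ∀ x y,
      hermForm 3 F q (Φ x) (Φ y) = Algebra.trace F L (x * y ^ q ^ 3) := by
  haveI : Module.Finite F L := Module.Finite.of_finite
  have hσ2 : ∀ a, conjHom hF (conjHom hF a) = a := pow_q_q hF
  have hσ : conjHom hF ≠ RingHom.id F := by
    intro h
    have hfix : ∀ x : F, x ^ q = x := fun x => RingHom.congr_fun h x
    have h2 := card_fixed hF
    rw [Nat.card_congr (Equiv.subtypeUnivEquiv hfix), Nat.card_eq_fintype_card, hF] at h2
    nlinarith [two_le_q hF]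
  have hS : ∀ u v, conjHom hF (traceHerm hF L u v) = traceHerm hF L v u := fun u v => by
    show (Algebra.trace F L (u ^ q ^ 3 * v)) ^ q = _
    rw [trace_pow_q' hF hL, mul_pow, pow_cube_pow_cube hF hL, mul_comm, traceHerm_apply]
  have hker : LinearMap.ker (traceHerm hF L) = ⊥ := by
    refine LinearMap.ker_eq_bot'.2 fun x hx => ?_
    have h1 : x ^ q ^ 3 = 0 := (traceForm_nondegenerate F L).1 _ fun y => by
      rw [Algebra.traceForm_apply]
      exact LinearMap.congr_fun hx y
    exact eq_zero_of_pow_eq_zero h1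
  obtain ⟨b, hb⟩ := CfsgLib.LinAlg.Witt.exists_orthonormal_basis (conjHom hF) hσ hσ2
    (traceHerm hF L) hS hker
  let Φ := b.equivFun.trans (LinearEquiv.funCongrLeft F F (finCongr hL.symm))
  refine ⟨Φ, fun x y => ?_⟩
  have h1 : Algebra.trace F L (x * y ^ q ^ 3) = traceHerm hF L y x := by
    rw [traceHerm_apply, mul_comm]
  rw [h1]
  conv_rhs => rw [← b.sum_equivFun x, ← b.sum_equivFun y]
  simp only [map_sum, LinearMap.map_smulₛₗ, LinearMap.sum_apply, LinearMap.smul_apply, hb,
    RingHom.id_apply, smul_eq_mul, mul_ite, mul_one, mul_zero, Finset.sum_ite_eq,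
    Finset.sum_ite_eq', Finset.mem_univ, if_true]
  rw [hermForm]
  refine Fintype.sum_equiv (finCongr hL.symm) _ _ fun i => ?_
  show b.equivFun x (finCongr hL.symm i) * (b.equivFun y (finCongr hL.symm i)) ^ q = _
  rfl

/-- The semilinear elements: the normaliser of the Singer torus. -/
def semiSub (Φ : L ≃ₗ[F] (Fin 3 → F)) : Subgroup ↥(SU 3 F q) where
  carrier := {A | ∃ ψ : L ≃ₐ[F] L, ∀ z x,
    sv A (Φ (z * x)) = Φ (ψ z * Φ.symm (sv A (Φ x)))}
  one_mem' := ⟨1, fun z x => by simp⟩
  mul_mem' := by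
    rintro A B ⟨ψ, hA⟩ ⟨ψ', hB⟩
    refine ⟨ψ * ψ', fun z x => ?_⟩
    rw [sv_mul, sv_mul, hB, hA, LinearEquiv.apply_symm_apply, AlgEquiv.mul_apply]
  inv_mem' := by
    rintro A ⟨ψ, hA⟩
    refine ⟨ψ.symm, fun z x => ?_⟩
    have h1 := hA (ψ.symm z) (Φ.symm (sv A⁻¹ (Φ x)))
    rw [AlgEquiv.apply_symm_apply, LinearEquiv.apply_symm_apply, sv_sv_inv,
      LinearEquiv.symm_apply_apply] at h1
    rw [← h1, sv_inv_sv]

theorem center_le_semiSub (hF : Fintype.card F = q ^ 2) (Φ : L ≃ₗ[F] (Fin 3 → F)) :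
    Subgroup.center ↥(SU 3 F q) ≤ semiSub Φ := by
  intro A hA
  obtain ⟨c, hc⟩ := (mem_center_SU_iff hF (by norm_num) A).1 hA
  have hsv : ∀ x, sv A x = c • x := fun x => by
    rw [sv, hc]; funext i; simp [Matrix.mulVec_diagonal]
  refine ⟨1, fun z x => ?_⟩
  simp [hsv, map_smul, mul_smul_comm]

theorem semiSub_ne_top (hF : Fintype.card F = q ^ 2) (hL : finrank F L = 3)
    (Φ : L ≃ₗ[F] (Fin 3 → F)) : semiSub (q := q) Φ ≠ ⊤ := by
  intro h
  classical
  have hq := two_le_q hF
  obtain ⟨l, hl⟩ := exists_norm_eq hF (a := (-1 : F)) (by rw [neg_pow_q hF, one_pow])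
  let v : Fin 3 → F := ![1, l, 0]
  have hv : hermForm 3 F q v v = 0 := by
    simp [v, hermForm, Fin.sum_univ_three, zero_pow (show q ≠ 0 by omega)]
    rw [← pow_succ', hl, add_neg_cancel]
  obtain ⟨c, hc0, hc⟩ : ∃ c : F, c ≠ 0 ∧ c + c ^ q = 0 := by
    by_contra! hh
    have h1 := card_trace_zero hF
    have h2 : Nat.card {x : F // x + x ^ q = 0} ≤ 1 :=
      Finite.card_le_one_iff_subsingleton.2 ⟨fun a b => Subtype.ext <| by
        rw [show (a : F) = 0 from by_contra fun ha => hh _ ha a.2,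
          show (b : F) = 0 from by_contra fun hb => hh _ hb b.2]⟩
    omega
  obtain ⟨ψ, hψ⟩ : transvSU hF v c hv hc ∈ semiSub Φ := h ▸ Subgroup.mem_top _
  set T : L →ₗ[F] L := Φ.symm.toLinearMap ∘ₗ
    (suEnd (transvSU hF v c hv hc) ∘ₗ Φ.toLinearMap) with hT
  have hTz : ∀ z x, T (z * x) = ψ z * T x := fun z x => by
    simp [T, suEnd_apply, hψ]
  let D : L →ₗ[F] L := T - LinearMap.id
  have hD2 : ∀ x, D (D x) = 0 := by
    intro x
    have hd : ∀ y, Φ (D y) = (c * hermForm 3 F q (Φ y) v) • v := fun y => by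
      simp [D, T, suEnd_apply, sv_transvSU]
    refine Φ.injective ?_
    rw [hd, hd, map_zero, herm_smul_left, hv, mul_zero, mul_zero, zero_smul]
  obtain ⟨y, hy⟩ : ∃ y, D y ≠ 0 := by
    refine ⟨Φ.symm (Pi.single 0 1), fun h0 => hc0 ?_⟩
    have h1 := congrArg Φ h0
    simp only [D, T, LinearMap.sub_apply, LinearMap.id_coe, id_eq, LinearMap.comp_apply,
      LinearEquiv.coe_coe, map_sub, LinearEquiv.apply_symm_apply, suEnd_apply, sv_transvSU,
      map_zero, add_sub_cancel_left] at h1
    have h2 := congrFun h1 0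
    simpa [v, hermForm, Fin.sum_univ_three, Pi.single_apply] using h2
  set x0 := D y with hx0
  have hTx0 : T x0 = x0 := sub_eq_zero.1 (hD2 y)
  have hD : ∀ z, D (z * x0) = (ψ z - z) * x0 := fun z => by
    simp only [D, LinearMap.sub_apply, LinearMap.id_coe, id_eq, hTz, hTx0, sub_mul]
  by_cases hψ1 : ψ = 1
  · have h1 := hD (y / x0)
    rw [div_mul_cancel₀ _ hy, hψ1, AlgEquiv.one_apply, sub_self, zero_mul] at h1
    exact hy h1
  · obtain ⟨z, hz⟩ := exists_sq_sub_ne_zero hL hψ1
    have h1 := hD2 (z * x0)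
    rw [hD, hD] at h1
    exact hz ((mul_eq_zero.1 h1).resolve_right hy)

end Ext

/-- A `GU`-conjugate is an `SU`-conjugate when the characteristic is three. -/
theorem exists_SU_conj (hF : Fintype.card F = q ^ 2) (h3 : 3 ∣ q) (g : ↥(SU 3 F q))
    {u : (Fin 3 → F) ≃ₗ[F] (Fin 3 → F)}
    (hu : ∀ x y, hermForm 3 F q (u x) (u y) = hermForm 3 F q x y) :
    ∃ A : ↥(SU 3 F q), ∀ x, sv (A * g * A⁻¹) x = u (sv g (u.symm x)) := by
  set M := LinearMap.toMatrix' (u : (Fin 3 → F) →ₗ[F] (Fin 3 → F)) with hM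
  have hMv : ∀ x, M *ᵥ x = u x := fun x => LinearMap.toMatrix'_mulVec _ x
  have hunit : IsUnit M.det := by
    rw [hM, LinearMap.det_toMatrix']
    exact LinearEquiv.isUnit_det' u
  have hd : M.det ^ (q + 1) = 1 := by
    have := det_pow_succ_eq_one hF (g := Matrix.GeneralLinearGroup.mkOfDetNeZero M hunit.ne_zero)
      (show _ ∈ GU 3 F q from fun a b => by
        show hermForm 3 F q (M *ᵥ a) (M *ᵥ b) = _
        rw [hMv, hMv, hu])
    exact this
  obtain ⟨j, rfl⟩ := h3
  set t := M.det ^ j with ht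
  have ht3 : t ^ 3 * M.det = 1 := by rw [ht, ← pow_mul, ← pow_succ, mul_comm j 3, hd]
  have htn : t ^ (3 * j + 1) = 1 := by rw [ht, ← pow_mul, mul_comm, pow_mul, hd, one_pow]
  have ht0 : t ≠ 0 := pow_ne_zero _ hunit.ne_zero
  refine ⟨⟨⟨t • M, by rw [Matrix.det_smul, Fintype.card_fin, ht3]⟩, mem_SU.2 fun a b => ?_⟩,
    fun x => ?_⟩
  · rw [smul_mulVec, smul_mulVec, herm_smul_left, herm_smul_right, hMv, hMv, hu, ← mul_assoc,
      ← pow_succ', htn, one_mul]
  · rw [sv_mul, sv_mul]
    generalize hA : (⟨⟨t • M, _⟩, _⟩ : ↥(SU 3 F (3 * j))) = A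
    have hAv : ∀ y, sv A y = t • u y := fun y => by
      rw [← hA, sv, ← hMv]
      exact smul_mulVec t M y
    have hinv : sv A⁻¹ x = t⁻¹ • u.symm x := by
      conv_lhs => rw [show x = sv A (t⁻¹ • u.symm x) by
        rw [hAv, map_smul, smul_smul, mul_inv_cancel₀ ht0, one_smul, u.apply_symm_apply]]
      rw [sv_inv_sv]
    rw [hinv, hAv, sv_smul, map_smul, smul_smul, mul_inv_cancel₀ ht0, one_smul]

/-- Irreducible elements lie in a conjugate of the Singer normaliser. -/
theorem irreducible_case (hF : Fintype.card F = q ^ 2) (h3 : 3 ∣ q) {L : Type u} [Field L]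
    [Algebra F L] [Finite L] (hL : finrank F L = 3) {Φ : L ≃ₗ[F] (Fin 3 → F)}
    (hΦ : ∀ x y, hermForm 3 F q (Φ x) (Φ y) = Algebra.trace F L (x * y ^ q ^ 3))
    (g : ↥(SU 3 F q)) (hg : ∀ r, ¬ (suEnd g).charpoly.IsRoot r) :
    ∃ A, A * g * A⁻¹ ∈ semiSub Φ := by
  classical
  haveI : Module.Finite F L := Module.Finite.of_finite
  set χ := (suEnd g).charpoly with hχ
  have hdeg : χ.natDegree = 3 := by rw [hχ, LinearMap.charpoly_natDegree, Module.finrank_fin_fun]
  have hirr : Irreducible χ :=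
    (Polynomial.Monic.irreducible_iff_roots_eq_zero_of_degree_le_three (p := χ) (suEnd g).charpoly_monic
      (by omega) (by omega)).2 (Multiset.eq_zero_of_forall_notMem fun x hx =>
        hg x (Polynomial.mem_roots'.1 hx).2)
  haveI : Fact (Irreducible χ) := ⟨hirr⟩
  haveI : Module.Finite F (AdjoinRoot χ) := (AdjoinRoot.powerBasis hirr.ne_zero).finite
  haveI : Finite (AdjoinRoot χ) := Module.finite_of_finite F
  have hfr : finrank F (AdjoinRoot χ) = 3 := by
    rw [(AdjoinRoot.powerBasis hirr.ne_zero).finrank, AdjoinRoot.powerBasis_dim, hdeg]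
  obtain ⟨φ⟩ := (FiniteField.nonempty_algHom_iff_finrank_dvd (F := F) (K := AdjoinRoot χ)
    (L := L)).2 (by rw [hfr, hL])
  set α := φ (AdjoinRoot.root χ) with hα
  have hφs : Function.Surjective φ := (LinearMap.injective_iff_surjective_of_finrank_eq_finrank
    (f := φ.toLinearMap) (by rw [hfr, hL])).1 φ.toRingHom.injective
  have hgen : Algebra.adjoin F {α} = ⊤ := by
    rw [← Set.image_singleton, ← AlgHom.map_adjoin, AdjoinRoot.adjoinRoot_eq_top, Algebra.map_top]
    exact AlgHom.range_eq_top φ |>.2 hφs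
  have hχα : aeval α χ = 0 := by
    rw [hα, aeval_algHom_apply, AdjoinRoot.aeval_eq, AdjoinRoot.mk_self, map_zero]
  have hmin : minpoly F α = χ :=
    (minpoly.eq_of_irreducible_of_monic hirr hχα (suEnd g).charpoly_monic).symm
  have hχM : χ = (g : Matrix (Fin 3) (Fin 3) F).charpoly := Matrix.charpoly_toLin' _
  obtain ⟨i, hi, hi'⟩ := selfConj_odd hF hgen (by
    rw [hmin, hχM]
    exact aeval_charpoly_inv hF g L α (by rw [← hχM]; exact hχα))
  rw [hL] at hi'
  have hα0 : α ≠ 0 := by
    intro h0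
    have h1 : χ.IsRoot 0 := by
      rw [IsRoot.def]
      refine (algebraMap F L).injective ?_
      rw [← aeval_algebraMap_apply_eq_algebraMap_eval, map_zero, ← h0, hχα, h0]
    exact hg 0 h1
  -- `α⁻¹ = α^(q³)`
  have hαQ : α⁻¹ = α ^ q ^ 3 := by
    obtain ⟨k, rfl⟩ : ∃ k, i = 2 + 3 * k := ⟨(i - 2) / 3, by omega⟩
    haveI := Fintype.ofFinite L
    have hper : α ^ (q ^ 3) ^ 2 = α := by
      rw [← card_ext (L := L) hF hL, Nat.card_eq_fintype_card, FiniteField.pow_card]
    have hk : ∀ k : ℕ, α ^ (q ^ 2) ^ (2 + 3 * k) = α ^ (q ^ 2) ^ 2 := by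
      intro k
      rw [show (q ^ 2) ^ (2 + 3 * k) = ((q ^ 3) ^ 2) ^ k * (q ^ 2) ^ 2 by ring, pow_mul]
      congr 1
      induction k with
      | zero => simp
      | succ m ih => rw [pow_succ, pow_mul, ih, hper]
    rw [hk] at hi
    have h5 := congrArg (fun x => x ^ q ^ 5) hi
    simp only [inv_pow, ← pow_mul] at h5
    rw [show q * q ^ 5 = (q ^ 3) ^ 2 by ring, hper,
      show q ^ (2 * 2) * q ^ 5 = (q ^ 3) ^ 2 * q ^ 3 by ring, pow_mul, hper] at h5
    exact h5
  obtain ⟨e, he⟩ := CfsgLib.Classical.Semisimple.exists_equiv_of_irreducible hirr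
    (f := suEnd g) (g := Algebra.lmul F L α) (suEnd g).aeval_self_charpoly
    (by rw [aeval_algHom_apply, hχα, map_zero]) (by rw [Module.finrank_fin_fun, hL])
  let B : L → L → F := fun x y => hermForm 3 F q (e.symm x) (e.symm y)
  have hBα : ∀ x y, B (α * x) (α * y) = B x y := fun x y => by
    have h1 : ∀ z, e.symm (α * z) = sv g (e.symm z) := fun z => e.injective (by
      rw [e.apply_symm_apply, ← suEnd_apply, he, e.apply_symm_apply]; rfl)
    show hermForm 3 F q _ _ = _
    rw [h1, h1, sv_herm]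
  obtain ⟨p, ex, hp, hcp, -, hqp⟩ := exists_char hF
  haveI := Fact.mk hp
  haveI : CharP L p := charP_of_injective_algebraMap (algebraMap F L).injective p
  have hadj : ∀ z, ∀ x y, B (z ^ q ^ 3 * x) y = B x (z * y) := by
    intro z
    have hz : z ∈ Algebra.adjoin F {α} := hgen ▸ Algebra.mem_top
    induction hz using Algebra.adjoin_induction with
    | mem z hz =>
      obtain rfl := hz
      intro x y
      rw [← hαQ]
      conv_rhs => rw [← mul_inv_cancel_left₀ hα0 x, hBα]
    | algebraMap c =>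
      intro x y
      have hc : c ^ q ^ 3 = c ^ q := by
        rw [show q ^ 3 = q * q ^ 2 by ring, pow_mul, ← hF, FiniteField.pow_card]
      show hermForm 3 F q _ _ = hermForm 3 F q _ _
      rw [← map_pow, hc, ← Algebra.smul_def, ← Algebra.smul_def, map_smul, map_smul, herm_smul_left,
        herm_smul_right]
    | add a b _ _ ha hb =>
      intro x y
      rw [show (a + b) ^ q ^ 3 = a ^ q ^ 3 + b ^ q ^ 3 by
        rw [hqp, ← pow_mul, add_pow_char_pow]]
      show hermForm 3 F q _ _ = hermForm 3 F q _ _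
      rw [add_mul, add_mul, map_add, map_add, herm_add_left, herm_add_right hF]
      exact congrArg₂ (· + ·) (ha x y) (hb x y)
    | mul a b _ _ ha hb =>
      intro x y
      rw [mul_pow, mul_assoc, ha, hb, mul_left_comm, mul_assoc]
  let f : L →ₗ[F] F :=
    { toFun := fun z => B z 1
      map_add' := fun a b => by simp [B, herm_add_left]
      map_smul' := fun c a => by simp [B, herm_smul_left] }
  have hBf : ∀ x y, B x y = f (x * y ^ q ^ 3) := fun x y => by
    show B x y = B (x * y ^ q ^ 3) 1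
    rw [mul_comm x, hadj, mul_one]
  have hT : Function.Injective (Algebra.traceForm F L) :=
    (injective_iff_map_eq_zero _).2 fun a ha => (traceForm_nondegenerate F L).1 a fun y => by
      rw [ha]; rfl
  obtain ⟨c, hc⟩ := (LinearMap.injective_iff_surjective_of_finrank_eq_finrank
    (Subspace.dual_finrank_eq.symm)).1 hT f
  have hf : ∀ z, f z = Algebra.trace F L (c * z) := fun z => by
    rw [← hc, Algebra.traceForm_apply]
  have hcQ : c ^ q ^ 3 = c := by
    refine sub_eq_zero.1 ((traceForm_nondegenerate F L).1 _ fun z => ?_)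
    rw [map_sub, LinearMap.sub_apply, Algebra.traceForm_apply, Algebra.traceForm_apply, sub_eq_zero]
    have h1 : B 1 (z ^ q ^ 3) = B (z ^ q ^ 3) 1 ^ q := herm_conj hF _ _
    rw [hBf, hBf, one_mul, one_pow, mul_one, pow_cube_pow_cube hF hL, hf, hf, trace_pow_q' hF hL,
      mul_pow, pow_cube_pow_cube hF hL] at h1
    exact h1.symm
  have hc0 : c ≠ 0 := by
    rintro rfl
    have h1 : ∀ y, B 1 y = 0 := fun y => by rw [hBf, hf, zero_mul, map_zero]
    have h2 := herm_nondeg hF (e.symm 1) fun y => by simpa [B] using h1 (e y)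
    exact one_ne_zero (e.symm.injective (h2.trans (map_zero _).symm))
  obtain ⟨ε, hε⟩ : ∃ ε : L, ε ^ (q ^ 3 + 1) = c := by
    haveI := Fintype.ofFinite L
    exact CfsgLib.Unitary.exists_norm_eq (F := L) (q := q ^ 3)
      (by rw [← Nat.card_eq_fintype_card, card_ext hF hL]) hcQ
  have hε0 : ε ≠ 0 := by
    rintro rfl
    rw [zero_pow (by omega)] at hε
    exact hc0 hε.symm
  let mε : L ≃ₗ[F] L := LinearEquiv.ofBijective (LinearMap.mulLeft F ε)
    ⟨mul_right_injective₀ hε0, fun y => ⟨ε⁻¹ * y, mul_inv_cancel_left₀ hε0 y⟩⟩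
  let u := e.trans (mε.trans Φ)
  obtain ⟨A, hA⟩ := exists_SU_conj hF h3 g (u := u) fun x y => by
    show hermForm 3 F q (Φ (ε * e x)) (Φ (ε * e y)) = _
    rw [hΦ, mul_pow, show hermForm 3 F q x y = B (e x) (e y) by simp [B], hBf, hf, ← hε]
    congr 1
    ring
  refine ⟨A, 1, fun z x => ?_⟩
  have key : ∀ w, sv (A * g * A⁻¹) (Φ w) = Φ (α * w) := fun w => by
    rw [hA]
    have h1 : u.symm (Φ w) = e.symm (ε⁻¹ * w) := u.injective (by
      rw [u.apply_symm_apply]
      show Φ w = Φ (ε * e (e.symm (ε⁻¹ * w)))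
      rw [e.apply_symm_apply, mul_inv_cancel_left₀ hε0])
    show Φ (ε * e (sv g (u.symm (Φ w)))) = _
    rw [h1, ← suEnd_apply, he, e.apply_symm_apply]
    congr 1
    show ε * (α * (ε⁻¹ * w)) = _
    field_simp
  rw [key, key, LinearEquiv.symm_apply_apply, AlgEquiv.one_apply]
  congr 1
  ring

section Unipotent

variable (g : ↥(SU 3 F q))

/-- `g - 1` on a vector. -/
def nilPart (x : Fin 3 → F) : Fin 3 → F := sv g x - x

theorem nil_relation (hF : Fintype.card F = q ^ 2) (x y : Fin 3 → F) :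
    hermForm 3 F q (nilPart g x) (nilPart g y) + hermForm 3 F q (nilPart g x) y +
      hermForm 3 F q x (nilPart g y) = 0 := by
  simp only [nilPart, herm_sub_left, herm_sub_right hF, sv_herm]
  ring

theorem nilPart_add_smul (a : F) (x y : Fin 3 → F) :
    nilPart g (x + a • y) = nilPart g x + a • nilPart g y := by
  simp only [nilPart, sv_add, sv_smul, smul_sub]
  abel

theorem nilPart_zero : nilPart g (0 : Fin 3 → F) = 0 := by simp [nilPart, sv]

variable {g}

/-- The normal form of a regular unipotent element. -/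
theorem exists_normal_vector (hF : Fintype.card F = q ^ 2)
    (h3 : ∀ x, nilPart g (nilPart g (nilPart g x)) = 0) (h2 : ∃ x, nilPart g (nilPart g x) ≠ 0)
    {b0 : F} (hb0 : b0 + b0 ^ q = 1) :
    ∃ w : Fin 3 → F, hermForm 3 F q w w = 0 ∧ hermForm 3 F q w (nilPart g w) = b0 ∧
      hermForm 3 F q w (nilPart g (nilPart g w)) = 1 := by
  let N := nilPart g
  let B := hermForm 3 F q
  have R := nil_relation g hF
  have i1 : ∀ x y, B (N (N x)) (N y) = 0 := fun x y => by
    have := R (N (N x)) y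
    rw [h3, herm_zero_left, herm_zero_left, zero_add, zero_add] at this
    exact this
  have i2 : ∀ x y, B (N (N x)) y = B x (N (N y)) := fun x y => by
    have e1 := R (N x) y
    have e2 := R x (N y)
    have e3 : B (N x) (N (N y)) = 0 := by
      rw [show B (N x) (N (N y)) = B (N (N y)) (N x) ^ q from herm_conj hF _ _, i1,
        zero_pow_q hF]
    have e4 := i1 x y
    simp only [B, N] at e3 e4 ⊢
    linear_combination e1 - e2 + e3 - e4
  obtain ⟨w0, hw0⟩ : ∃ w, B w (N (N w)) ≠ 0 := by
    by_contra! hzero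
    obtain ⟨x, hx⟩ := h2
    refine hx (herm_nondeg hF _ fun y => ?_)
    obtain ⟨t, ht, ht2⟩ := exists_norm_one_ne_inv hF
    have key : ∀ s : F, s ^ q * B x (N (N y)) + s * B y (N (N x)) = 0 := by
      intro s
      have h1 := hzero (x + s • y)
      simp only [B, N, nilPart_add_smul, herm_add_left, herm_add_right hF, herm_smul_left,
        herm_smul_right] at h1
      have hx0 := hzero x
      have hy0 := hzero y
      simp only [B, N] at hx0 hy0 ⊢
      linear_combination h1 - hx0 - s * s ^ q * hy0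
    have h1 := key 1
    have h2 := key t
    simp only [one_pow, one_mul] at h1
    have h4 : (t ^ q - t) * B x (N (N y)) = 0 := by linear_combination h2 - t * h1
    rcases mul_eq_zero.1 h4 with h5 | h5
    · refine absurd ?_ ht2
      rw [sq]
      nth_rewrite 1 [← sub_eq_zero.1 h5]
      rw [← pow_succ, ht]
    · exact (i2 x y).trans h5
  have hfix : (B w0 (N (N w0))) ^ q = B w0 (N (N w0)) := by
    rw [← herm_conj hF]
    exact i2 w0 w0
  obtain ⟨s, hs⟩ := exists_norm_eq hF (a := (B w0 (N (N w0)))⁻¹) (by rw [inv_pow_q, hfix])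
  set w := s • w0 with hw
  have hNs : ∀ (a : F) x, N (a • x) = a • N x := fun a x => by
    simp [N, nilPart, sv_smul, smul_sub]
  have hc1 : B w (N (N w)) = 1 := by
    rw [hw, hNs, hNs]
    simp only [B, herm_smul_left, herm_smul_right]
    rw [← mul_assoc, ← pow_succ, hs, inv_mul_cancel₀ hw0]
  clear_value w
  set b := B w (N w) with hb
  have hbb : b + b ^ q = 1 := by
    have e1 := R w w
    have e2 : B (N w) (N w) = -1 := by
      have e3 := R (N w) w
      have e4 := i1 w w
      have e5 := i2 w w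
      simp only [B, N] at e4 e5 hc1 ⊢
      linear_combination e3 - e4 - e5 - hc1
    have e3 : B (N w) w = b ^ q := by rw [hb]; exact herm_conj hF _ _
    simp only [B, N] at e2 e3 hb ⊢
    rw [hb]
    linear_combination e1 - e2 - e3
  obtain ⟨θ, hθ⟩ := exists_trace_eq hF (a := (1 : F)) (one_pow q)
  set δ := b0 - b with hδ
  have hδq : δ ^ q = -δ := by rw [hδ, sub_pow_q hF]; linear_combination hb0 - hbb
  set k := -(δ * θ) with hk
  have hkq : k ^ q - k = δ := by
    rw [hk, neg_pow_q hF, mul_pow, hδq]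
    linear_combination δ * hθ
  clear_value k
  set w1 := w + k • N w with hw1
  clear_value w1
  have hN1 : N w1 = N w + k • N (N w) := by rw [hw1]; exact nilPart_add_smul g k _ _
  have hN2 : N (N w1) = N (N w) := by
    rw [hN1]
    show nilPart g _ = _
    rw [nilPart_add_smul, h3, smul_zero, add_zero]
  have hc2 : B w1 (N (N w1)) = 1 := by
    have e1 : B (N w) (N (N w)) = 0 := by
      rw [show B (N w) (N (N w)) = B (N (N w)) (N w) ^ q from herm_conj hF _ _, i1, zero_pow_q hF]
    rw [hN2, hw1]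
    simp only [B, N] at e1 hc1 ⊢
    rw [herm_add_left, herm_smul_left, e1, hc1, mul_zero, add_zero]
  have hb2 : B w1 (N w1) = b0 := by
    have e1 : B (N w) (N (N w)) = 0 := by
      rw [show B (N w) (N (N w)) = B (N (N w)) (N w) ^ q from herm_conj hF _ _, i1, zero_pow_q hF]
    have e2 : B (N w) (N w) = -1 := by
      have e3 := R (N w) w
      have e4 := i1 w w
      have e5 := i2 w w
      simp only [B, N] at e4 e5 hc1 ⊢
      linear_combination e3 - e4 - e5 - hc1
    rw [hN1, hw1]
    simp only [B, N] at e1 e2 hc1 hb ⊢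
    rw [herm_add_left, herm_add_right hF, herm_add_right hF, herm_smul_left, herm_smul_left,
      herm_smul_right, herm_smul_right, e1, e2, hc1, ← hb]
    linear_combination hkq + hδ
  set a := B w1 w1 with ha
  obtain ⟨m, hm⟩ := exists_trace_eq hF (a := -a) (by
    rw [neg_pow_q hF, ha]; exact congrArg _ (herm_self_fixed hF _))
  refine ⟨w1 + m • N (N w1), ?_, ?_, ?_⟩
  · have e1 : B (N (N w1)) w1 = 1 := by rw [i2]; exact hc2
    have e2 : B (N (N w1)) (N (N w1)) = 0 := i1 w1 (N w1)
    simp only [B, N] at e1 e2 hc2 ha ⊢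
    rw [herm_add_left, herm_add_right hF, herm_add_right hF, herm_smul_left, herm_smul_left,
      herm_smul_right, herm_smul_right, e1, e2, hc2, ← ha]
    linear_combination hm
  · have e1 := i1 w1 w1
    simp only [B, N] at e1 hb2 ⊢
    rw [nilPart_add_smul, h3, smul_zero, add_zero, herm_add_left, herm_smul_left, e1, mul_zero,
      add_zero, hb2]
  · have e1 : B (N (N w1)) (N (N w1)) = 0 := i1 w1 (N w1)
    simp only [B, N] at e1 hc2 ⊢
    rw [nilPart_add_smul, h3, smul_zero, add_zero, herm_add_left, herm_smul_left, e1, mul_zero,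
      add_zero, hc2]

theorem gram_eq (hF : Fintype.card F = q ^ 2)
    (h3 : ∀ x, nilPart g (nilPart g (nilPart g x)) = 0) {b0 : F} {w : Fin 3 → F}
    (hw0 : hermForm 3 F q w w = 0) (hw1 : hermForm 3 F q w (nilPart g w) = b0)
    (hw2 : hermForm 3 F q w (nilPart g (nilPart g w)) = 1) (i j : Fin 3) :
    hermForm 3 F q (![w, nilPart g w, nilPart g (nilPart g w)] i)
        (![w, nilPart g w, nilPart g (nilPart g w)] j) =
      !![0, b0, 1; b0 ^ q, -1, 0; 1, 0, 0] i j := by
  have R := nil_relation g hF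
  have i1 : ∀ x y, hermForm 3 F q (nilPart g (nilPart g x)) (nilPart g y) = 0 := fun x y => by
    have := R (nilPart g (nilPart g x)) y
    rw [h3, herm_zero_left, herm_zero_left, zero_add, zero_add] at this
    exact this
  have c10 : hermForm 3 F q (nilPart g w) w = b0 ^ q := by rw [herm_conj hF, hw1]
  have c20 : hermForm 3 F q (nilPart g (nilPart g w)) w = 1 := by rw [herm_conj hF, hw2, one_pow]
  have c11 : hermForm 3 F q (nilPart g w) (nilPart g w) = -1 := by
    linear_combination R (nilPart g w) w - i1 w w - c20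
  have c12 : hermForm 3 F q (nilPart g w) (nilPart g (nilPart g w)) = 0 := by
    rw [herm_conj hF, i1, zero_pow_q hF]
  have c21 := i1 w w
  have c22 := i1 w (nilPart g w)
  fin_cases i <;> fin_cases j <;> simp <;> assumption

end Unipotent

/-- Regular unipotent elements are conjugate under isometries. -/
theorem exists_isometry_of_regular (hF : Fintype.card F = q ^ 2) {g g' : ↥(SU 3 F q)}
    (hg : ∀ x, nilPart g (nilPart g (nilPart g x)) = 0) (hg2 : ∃ x, nilPart g (nilPart g x) ≠ 0)
    (hg' : ∀ x, nilPart g' (nilPart g' (nilPart g' x)) = 0)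
    (hg2' : ∃ x, nilPart g' (nilPart g' x) ≠ 0) :
    ∃ u : (Fin 3 → F) ≃ₗ[F] (Fin 3 → F),
      (∀ x y, hermForm 3 F q (u x) (u y) = hermForm 3 F q x y) ∧
      ∀ x, u (sv g x) = sv g' (u x) := by
  obtain ⟨b0, hb0⟩ := exists_trace_eq hF (a := (1 : F)) (one_pow q)
  obtain ⟨w, a0, a1, a2⟩ := exists_normal_vector hF hg hg2 hb0
  obtain ⟨w', a0', a1', a2'⟩ := exists_normal_vector hF hg' hg2' hb0
  have G := gram_eq hF hg a0 a1 a2
  have G' := gram_eq hF hg' a0' a1' a2'
  set v := ![w, nilPart g w, nilPart g (nilPart g w)] with hv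
  set v' := ![w', nilPart g' w', nilPart g' (nilPart g' w')] with hv'
  have hli : ∀ f : Fin 3 → Fin 3 → F, (∀ i j, hermForm 3 F q (f i) (f j) =
      !![0, b0, 1; b0 ^ q, -1, 0; 1, 0, 0] i j) → LinearIndependent F f := by
    intro f hf
    rw [Fintype.linearIndependent_iff]
    intro c hc
    have key : ∀ j, ∑ i, c i * !![0, b0, 1; b0 ^ q, -1, 0; 1, 0, 0] i j = 0 := fun j => by
      calc ∑ i, c i * _ = hermForm 3 F q (∑ i, c i • f i) (f j) := by
            rw [herm_sum_left]; exact Finset.sum_congr rfl fun i _ => by rw [herm_smul_left, hf]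
        _ = 0 := by rw [hc, herm_zero_left]
    have k0 := key 0
    have k1 := key 1
    have k2 := key 2
    simp [Fin.sum_univ_three] at k0 k1 k2
    have e1 : c 1 = 0 := by
      rw [k2, zero_mul, zero_add, neg_eq_zero] at k1
      exact k1
    have e2 : c 2 = 0 := by
      rw [e1, zero_mul, zero_add] at k0
      exact k0
    intro i
    fin_cases i
    exacts [k2, e1, e2]
  let bg : Basis (Fin 3) F (Fin 3 → F) :=
    basisOfLinearIndependentOfCardEqFinrank (hli v G) (by simp)
  let bg' : Basis (Fin 3) F (Fin 3 → F) :=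
    basisOfLinearIndependentOfCardEqFinrank (hli v' G') (by simp)
  have hbg : ∀ i, bg i = v i := fun i => by simp [bg]
  have hbg' : ∀ i, bg' i = v' i := fun i => by simp [bg']
  let u := bg.equiv bg' (Equiv.refl _)
  have hu : ∀ i, u (v i) = v' i := fun i => by
    rw [← hbg, Module.Basis.equiv_apply, Equiv.refl_apply, hbg']
  refine ⟨u, fun x y => ?_, fun x => ?_⟩
  · rw [← bg.sum_repr x, ← bg.sum_repr y]
    simp only [map_sum, map_smul, hbg, hu, herm_sum_left, herm_sum_right hF, herm_smul_left,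
      herm_smul_right, G, G']
  · have h : (u : (Fin 3 → F) →ₗ[F] Fin 3 → F) ∘ₗ suEnd g =
        suEnd g' ∘ₗ (u : (Fin 3 → F) →ₗ[F] Fin 3 → F) := by
      refine bg.ext fun i => ?_
      show u (sv g (bg i)) = sv g' (u (bg i))
      rw [hbg, hu]
      have e0 : sv g w = v 0 + v 1 := by simp [v, nilPart]
      have e1 : sv g (nilPart g w) = v 1 + v 2 := by simp [v, nilPart]
      have e2 : sv g (nilPart g (nilPart g w)) = v 2 :=
        sub_eq_zero.1 (hg w)
      have e0' : sv g' w' = v' 0 + v' 1 := by simp [v', nilPart]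
      have e1' : sv g' (nilPart g' w') = v' 1 + v' 2 := by simp [v', nilPart]
      have e2' : sv g' (nilPart g' (nilPart g' w')) = v' 2 :=
        sub_eq_zero.1 (hg' w')
      fin_cases i
      · show u (sv g w) = sv g' w'
        rw [e0, e0', map_add, hu, hu]
      · show u (sv g (nilPart g w)) = sv g' (nilPart g' w')
        rw [e1, e1', map_add, hu, hu]
      · show u (sv g (nilPart g (nilPart g w))) = sv g' (nilPart g' (nilPart g' w'))
        rw [e2, e2', hu]
    exact LinearMap.congr_fun h x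

/-- Without non-isotropic eigenvectors a reducible element is regular unipotent. -/
theorem regular_of_isotropic_eigen (hF : Fintype.card F = q ^ 2) [CharP F 3] {g : ↥(SU 3 F q)}
    (hne : ∀ (x : Fin 3 → F) (c : F), sv g x = c • x → hermForm 3 F q x x = 0)
    {v : Fin 3 → F} (hv0 : v ≠ 0) {l : F} (hv : sv g v = l • v) :
    (∀ x, nilPart g (nilPart g (nilPart g x)) = 0) ∧ ∃ x, nilPart g (nilPart g x) ≠ 0 := by
  classical
  have hvv := hne v l hv
  have hl : l ≠ 0 := by
    rintro rfl
    rw [zero_smul] at hv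
    exact hv0 (by rw [← sv_inv_sv g v, hv]; simp [sv])
  obtain ⟨x0, hx0x0, hx0⟩ : ∃ x0, hermForm 3 F q x0 x0 = 0 ∧ hermForm 3 F q x0 v = 1 := by
    obtain ⟨f, -, hff, hf⟩ := exists_partner hF (isNondeg_top hF) (trivial : v ∈ ⊤) hv0 hvv
    exact ⟨f, hff, by rw [herm_conj hF, hf, one_pow]⟩
  let M : Submodule F (Fin 3 → F) := LinearMap.ker (hermLeft q v)
  have hMdef : ∀ x, x ∈ M ↔ hermForm 3 F q x v = 0 := fun x => Iff.rfl
  have hdec : ∀ x, x - hermForm 3 F q x v • x0 ∈ M := fun x =>
    (hMdef _).2 (by rw [herm_sub_left, herm_smul_left, hx0, mul_one, sub_self])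
  have hMrank : finrank F M = 2 := by
    have h1 := LinearMap.finrank_range_add_finrank_ker (hermLeft (n := 3) q v)
    have h2 : LinearMap.range (hermLeft (n := 3) q v) = ⊤ := LinearMap.range_eq_top.2 fun c =>
      ⟨c • x0, by rw [map_smul]; show c * hermForm 3 F q x0 v = c; rw [hx0, mul_one]⟩
    rw [h2, finrank_top, finrank_self, Module.finrank_fin_fun] at h1
    show finrank F (LinearMap.ker (hermLeft q v)) = 2
    omega
  have hvM : v ∈ M := (hMdef v).2 hvv
  obtain ⟨w, hwM, hwN⟩ : ∃ w ∈ M, w ∉ Submodule.span F {v} := by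
    by_contra! h
    have := Submodule.finrank_mono (show M ≤ Submodule.span F {v} from h)
    rw [finrank_span_singleton hv0, hMrank] at this
    omega
  have hgen : ∀ x ∈ M, ∃ a b : F, a • w + b • v = x := by
    have hlt : Submodule.span F {v} < Submodule.span F {v} ⊔ Submodule.span F {w} :=
      lt_of_le_not_ge le_sup_left fun h =>
        hwN (h (Submodule.mem_sup_right (Submodule.mem_span_singleton_self w)))
    have h2 := Submodule.finrank_lt_finrank_of_lt hlt
    rw [finrank_span_singleton hv0] at h2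
    have hM : M = Submodule.span F {v} ⊔ Submodule.span F {w} :=
      (Submodule.eq_of_le_of_finrank_le (sup_le
        ((Submodule.span_singleton_le_iff_mem _ _).2 hvM)
        ((Submodule.span_singleton_le_iff_mem _ _).2 hwM)) (by rw [hMrank]; omega)).symm
    intro x hx
    rw [hM] at hx
    obtain ⟨y, hy, z, hz, rfl⟩ := Submodule.mem_sup.1 hx
    obtain ⟨b, rfl⟩ := Submodule.mem_span_singleton.1 hy
    obtain ⟨a, rfl⟩ := Submodule.mem_span_singleton.1 hz
    exact ⟨a, b, add_comm _ _⟩
  have hww : hermForm 3 F q w w ≠ 0 := by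
    intro hww
    have hvw : hermForm 3 F q v w = 0 := herm_eq_zero_comm hF ((hMdef w).1 hwM)
    have h1 : ∀ x, hermForm 3 F q x (w - (hermForm 3 F q x0 w) ^ q • v) = 0 := fun x => by
      obtain ⟨a, b, hab⟩ := hgen _ (hdec x)
      have hxm : hermForm 3 F q (x - hermForm 3 F q x v • x0) w = 0 := by
        rw [← hab, herm_add_left, herm_smul_left, herm_smul_left, hww, hvw]; ring
      rw [herm_sub_left, herm_smul_left] at hxm
      rw [herm_sub_right hF, herm_smul_right, pow_q_q hF]
      linear_combination hxm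
    have h3 := herm_nondeg hF _ fun y => herm_eq_zero_comm hF (h1 y)
    rw [sub_eq_zero] at h3
    exact hwN (h3 ▸ Submodule.smul_mem _ _ (Submodule.mem_span_singleton_self v))
  have hgM : ∀ x ∈ M, sv g x ∈ M := fun x hx => by
    have h1 := sv_herm g x v
    rw [hv, herm_smul_right, (hMdef x).1 hx] at h1
    exact (hMdef _).2 ((mul_eq_zero.1 h1).resolve_left (pow_ne_zero _ hl))
  obtain ⟨μ, c, hw⟩ := hgen _ (hgM w hwM)
  have hμl : μ = l := by
    by_contra hμ
    have hd : μ - l ≠ 0 := sub_ne_zero.2 hμ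
    refine hww ?_
    have h1 := hne (w + (c / (μ - l)) • v) μ (by
      rw [sv_add, sv_smul, ← hw, hv, smul_add, smul_smul, smul_smul, add_assoc, ← add_smul]
      congr 2
      field_simp
      ring)
    simpa [herm_add_left, herm_add_right hF, herm_smul_left, herm_smul_right, hvv, (hMdef w).1 hwM,
      herm_eq_zero_comm hF ((hMdef w).1 hwM)] using h1
  rw [hμl] at hw
  have hlq : l ^ q * l = 1 := by
    have h1 := sv_herm g w w
    rw [← hw] at h1
    simp only [herm_add_left, herm_add_right hF, herm_smul_left, herm_smul_right, hvv,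
      (hMdef w).1 hwM, herm_eq_zero_comm hF ((hMdef w).1 hwM), mul_zero, add_zero] at h1
    exact mul_right_cancel₀ hww (by linear_combination h1)
  obtain ⟨a, b, hab⟩ : ∃ a b : F, a • w + b • v = sv g x0 - l • x0 := by
    refine hgen _ ((hMdef _).2 ?_)
    have h1 := sv_herm g x0 v
    rw [hv, herm_smul_right, hx0] at h1
    rw [herm_sub_left, herm_smul_left, hx0]
    linear_combination l * h1 - hermForm 3 F q (sv g x0) v * hlq
  let E : Module.End F (Fin 3 → F) := suEnd g - algebraMap F _ l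
  have hE : ∀ x, E x = sv g x - l • x := fun x => by
    simp [E, suEnd_apply, Module.algebraMap_end_apply]
  have hE3 : E ^ 3 = 0 := by
    refine LinearMap.ext fun x => ?_
    have hEv : E v = 0 := by rw [hE, hv, sub_self]
    have hEw : E w = c • v := by rw [hE, ← hw, add_sub_cancel_left]
    have hEx : E x0 = a • w + b • v := by rw [hE, hab]
    obtain ⟨a', b', hx⟩ := hgen _ (hdec x)
    rw [sub_eq_iff_eq_add.1 hx.symm, pow_succ, pow_two, Module.End.mul_apply, Module.End.mul_apply]
    simp [hEv, hEw, hEx]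
  have hl1 : l = 1 := by
    haveI : Fact (Nat.Prime 3) := ⟨Nat.prime_three⟩
    haveI : CharP (Module.End F (Fin 3 → F)) 3 :=
      charP_of_injective_algebraMap (algebraMap F (Module.End F (Fin 3 → F))).injective 3
    have h1 := sub_pow_char_of_commute (R := Module.End F (Fin 3 → F)) (p := 3)
      (Algebra.commute_algebraMap_right l (suEnd g))
    rw [show suEnd g - algebraMap F _ l = E from rfl, hE3, eq_comm, sub_eq_zero, ← map_pow] at h1
    have h2 := congrArg LinearMap.det h1
    rw [map_pow, show LinearMap.det (suEnd g) = 1 from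
      (LinearMap.det_toLin' _).trans (g : Matrix.SpecialLinearGroup (Fin 3) F).2, one_pow,
      Algebra.algebraMap_eq_smul_one, LinearMap.det_smul, map_one, mul_one,
      Module.finrank_fin_fun] at h2
    have h3 : (l ^ 3 - 1) ^ 3 = 0 := by
      rw [sub_pow_char, one_pow, ← h2, sub_self]
    have h4 := sub_eq_zero.1 (eq_zero_of_pow_eq_zero h3)
    exact sub_eq_zero.1 (eq_zero_of_pow_eq_zero
      (show (l - 1) ^ 3 = 0 by rw [sub_pow_char, one_pow, h4, sub_self]))
  subst hl1
  have hnE : ∀ x, nilPart g x = E x := fun x => by rw [hE, one_smul]; rfl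
  refine ⟨fun x => ?_, ?_⟩
  · rw [hnE, hnE, hnE]
    have := LinearMap.congr_fun hE3 x
    rwa [pow_succ, pow_two, Module.End.mul_apply, Module.End.mul_apply] at this
  by_contra! h2
  have hEw : nilPart g w = c • v := by
    rw [nilPart, ← hw, one_smul, add_sub_cancel_left]
  have hEx : nilPart g x0 = a • w + b • v := by rw [nilPart, hab, one_smul]
  have hac : a * c = 0 := by
    have h4 := h2 x0
    rw [hEx, nilPart, sv_add, sv_smul, sv_smul, hv, one_smul, ← hw, one_smul] at h4
    refine (smul_eq_zero.1 (show (a * c) • v = 0 from ?_)).resolve_right hv0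
    rw [← h4]
    module
  have hc : c = 0 := by
    rcases mul_eq_zero.1 hac with ha | hc
    · -- `g - 1` maps `x0` into the isotropic line
      have h1 := sv_herm g x0 w
      have hgx : sv g x0 = x0 + b • v := by
        rw [ha, zero_smul, zero_add] at hEx
        rw [← hEx, nilPart]; abel
      rw [hgx, ← hw, one_smul] at h1
      simp only [herm_add_left, herm_add_right hF, herm_smul_left, herm_smul_right, hx0, hvv,
        herm_eq_zero_comm hF ((hMdef w).1 hwM), mul_zero, mul_one, add_zero] at h1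
      have h5 : c ^ q = 0 := by linear_combination h1
      exact eq_zero_of_pow_eq_zero h5
    · exact hc
  refine hww (hne w 1 ?_)
  rw [← hw, hc, zero_smul, add_zero]

theorem covered_psu_three (hF : Fintype.card F = q ^ 2) {a : ℕ} (ha : 1 ≤ a) (hq3 : q = 3 ^ a) :
    Covered (PSU 3 F q) := by
  classical
  have h3 : 3 ∣ q := hq3 ▸ dvd_pow_self 3 (by omega)
  haveI : Fact (Nat.Prime 3) := ⟨Nat.prime_three⟩
  haveI : CharP F 3 := by
    obtain ⟨p, e, hp, hcp, he, hpq⟩ := exists_char hF
    have h1 : 3 ∣ p ^ e := hpq ▸ h3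
    have := (Nat.prime_dvd_prime_iff_eq Nat.prime_three hp).1 (Nat.prime_three.dvd_of_dvd_pow h1)
    exact this ▸ hcp
  obtain ⟨P, hPm, hP, hPd⟩ := exists_irreducible_natDegree (F := F) 3
  haveI : Fact (Irreducible P) := ⟨hP⟩
  haveI : Module.Finite F (AdjoinRoot P) := (AdjoinRoot.powerBasis hP.ne_zero).finite
  haveI : Finite (AdjoinRoot P) := Module.finite_of_finite F
  have hL : finrank F (AdjoinRoot P) = 3 := by
    rw [(AdjoinRoot.powerBasis hP.ne_zero).finrank, AdjoinRoot.powerBasis_dim, hPd]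
  obtain ⟨Φ, hΦ⟩ := exists_traceIsometry (L := AdjoinRoot P) hF hL
  -- the field automorphism as an element of `SU`
  let ψ := FiniteField.frobeniusAlgEquivOfAlgebraic F (AdjoinRoot P)
  have hψ1 : ψ ≠ 1 := fun h => by
    have h1 := FiniteField.orderOf_frobeniusAlgEquivOfAlgebraic F (AdjoinRoot P)
    rw [show FiniteField.frobeniusAlgEquivOfAlgebraic F (AdjoinRoot P) = 1 from h, orderOf_one,
      hL] at h1
    omega
  set T : (Fin 3 → F) →ₗ[F] Fin 3 → F :=
    Φ.toLinearMap ∘ₗ (ψ.toLinearMap ∘ₗ Φ.symm.toLinearMap) with hT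
  have hTdet : LinearMap.det T = 1 := by
    have h1 : T ^ 3 = 1 := by
      refine LinearMap.ext fun x => ?_
      rw [pow_succ, pow_two, Module.End.mul_apply, Module.End.mul_apply]
      simp only [T, LinearMap.comp_apply, LinearEquiv.coe_coe, LinearEquiv.symm_apply_apply,
        AlgEquiv.toLinearMap_apply, Module.End.one_apply]
      have h2 : ψ ^ 3 = 1 := by
        rw [← hL, ← FiniteField.orderOf_frobeniusAlgEquivOfAlgebraic F (AdjoinRoot P),
          pow_orderOf_eq_one]
      have h3 := AlgEquiv.congr_fun h2 (Φ.symm x)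
      rw [pow_succ, pow_two, AlgEquiv.mul_apply, AlgEquiv.mul_apply, AlgEquiv.one_apply] at h3
      rw [h3, LinearEquiv.apply_symm_apply]
    have h2 := congrArg LinearMap.det h1
    rw [map_pow, map_one] at h2
    exact sub_eq_zero.1 (eq_zero_of_pow_eq_zero
      (show (LinearMap.det T - 1) ^ 3 = 0 by rw [sub_pow_char, one_pow, h2, sub_self]))
  have hTB : ∀ x y, hermForm 3 F q (T x) (T y) = hermForm 3 F q x y := by
    intro x y
    obtain ⟨x, rfl⟩ := Φ.surjective x
    obtain ⟨y, rfl⟩ := Φ.surjective y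
    simp only [T, LinearMap.comp_apply, LinearEquiv.coe_coe, LinearEquiv.symm_apply_apply,
      AlgEquiv.toLinearMap_apply, hΦ]
    rw [← map_pow, ← map_mul, Algebra.trace_eq_of_algEquiv]
  let A0 : ↥(SU 3 F q) := ⟨⟨LinearMap.toMatrix' T, by rw [LinearMap.det_toMatrix', hTdet]⟩,
    mem_SU.2 fun x y => by
      show hermForm 3 F q (LinearMap.toMatrix' T *ᵥ x) (LinearMap.toMatrix' T *ᵥ y) = _
      rw [LinearMap.toMatrix'_mulVec, LinearMap.toMatrix'_mulVec, hTB]⟩
  have hA0 : ∀ z, sv A0 (Φ z) = Φ (ψ z) := fun z => by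
    show LinearMap.toMatrix' T *ᵥ _ = _
    rw [LinearMap.toMatrix'_mulVec]
    simp [T]
  have hA0K : A0 ∈ semiSub Φ := ⟨ψ, fun z x => by
    rw [hA0, hA0, LinearEquiv.symm_apply_apply, map_mul]⟩
  have hA0n : ∀ z, nilPart A0 (Φ z) = Φ (ψ z - z) := fun z => by rw [nilPart, hA0, map_sub]
  have hA03 : ∀ x, nilPart A0 (nilPart A0 (nilPart A0 x)) = 0 := fun x => by
    obtain ⟨z, rfl⟩ := Φ.surjective x
    rw [hA0n, hA0n, hA0n, ← map_zero Φ]
    congr 1
    haveI : CharP (AdjoinRoot P) 3 :=
      charP_of_injective_algebraMap (algebraMap F (AdjoinRoot P)).injective 3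
    have h3' : (3 : AdjoinRoot P) = 0 := by exact_mod_cast CharP.cast_eq_zero (AdjoinRoot P) 3
    have h2 : ψ (ψ (ψ z)) = z := by
      have h : ψ ^ 3 = 1 := by
        rw [← hL, ← FiniteField.orderOf_frobeniusAlgEquivOfAlgebraic F (AdjoinRoot P),
          pow_orderOf_eq_one]
      exact AlgEquiv.congr_fun h z
    rw [map_sub, map_sub, map_sub]
    linear_combination h2 + (ψ z - ψ (ψ z)) * h3'
  have hA02 : ∃ x, nilPart A0 (nilPart A0 x) ≠ 0 := by
    obtain ⟨z, hz⟩ := exists_sq_sub_ne_zero hL hψ1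
    refine ⟨Φ z, ?_⟩
    rw [hA0n, hA0n, ← map_zero Φ]
    exact fun h => hz (Φ.injective h)
  let f : Fin 1 → Fin 3 → F := fun _ => Pi.single 0 1
  have hf : Orthonorm q f := fun i j => by simp [f, herm_single_single hF, Subsingleton.elim i j]
  let H : Submodule F (Fin 3 → F) := Submodule.span F {Pi.single 0 1}
  refine covered_quotient _ (center_le_spaceSub hF (by norm_num) H) (center_le_semiSub hF Φ)
    (fun h => ?_) (semiSub_ne_top hF hL Φ) fun g => ?_
  · obtain ⟨T, hT⟩ := exists_SU_map_orthonorm hF hf (f' := fun _ : Fin 1 => Pi.single (2 : Fin 3) 1)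
      (fun i j => by simp [herm_single_single hF, Subsingleton.elim i j]) (by norm_num)
    have h1 := (h ▸ Subgroup.mem_top T : T ∈ spaceSub H) _ (Submodule.mem_span_singleton_self _)
    rw [hT 0] at h1
    obtain ⟨c, hc⟩ := Submodule.mem_span_singleton.1 h1
    simpa using congrFun hc 2
  by_cases hno : ∃ (x : Fin 3 → F) (c : F), sv g x = c • x ∧ hermForm 3 F q x x ≠ 0
  · obtain ⟨x, c, hx, hxx⟩ := hno
    obtain ⟨s, hs⟩ := exists_norm_eq hF (a := (hermForm 3 F q x x)⁻¹)
      (by rw [inv_pow_q, herm_self_fixed hF])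
    obtain ⟨A, hA⟩ := exists_SU_map_orthonorm hF (f := fun _ : Fin 1 => s • x)
      (fun i j => by simp [herm_self_smul, hs, inv_mul_cancel₀ hxx, Subsingleton.elim i j]) hf
      (by norm_num)
    have hA0 : sv A (s • x) = Pi.single 0 1 := hA 0
    refine ⟨A, Or.inl fun y hy => ?_⟩
    obtain ⟨b, rfl⟩ := Submodule.mem_span_singleton.1 hy
    have hinv : sv A⁻¹ (Pi.single (0 : Fin 3) 1) = s • x := by rw [← hA0, sv_inv_sv]
    rw [sv_smul, sv_mul, sv_mul, hinv, sv_smul, hx, smul_comm s c, sv_smul, hA0, smul_smul]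
    exact Submodule.smul_mem _ _ (Submodule.mem_span_singleton_self _)
  push Not at hno
  by_cases hev : ∃ (v : Fin 3 → F) (c : F), v ≠ 0 ∧ sv g v = c • v
  · obtain ⟨v, c, hv0, hv⟩ := hev
    obtain ⟨h3g, h2g⟩ := regular_of_isotropic_eigen hF hno hv0 hv
    obtain ⟨u, hu, hug⟩ := exists_isometry_of_regular hF h3g h2g hA03 hA02
    obtain ⟨A, hA⟩ := exists_SU_conj hF h3 g hu
    refine ⟨A, Or.inr ?_⟩
    rw [show A * g * A⁻¹ = A0 from sv_ext fun x => by rw [hA, hug, u.apply_symm_apply]]
    exact hA0K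
  · push Not at hev
    obtain ⟨A, hA⟩ := irreducible_case hF h3 hL hΦ g fun r hr => by
      obtain ⟨v, hv⟩ := ((Module.End.hasEigenvalue_iff_isRoot_charpoly _ _).2 hr).exists_hasEigenvector
      exact hev v r hv.2 hv.apply_eq_smul
    exact ⟨A, Or.inr hA⟩

end CfsgLib.TwoClassCover
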