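import Cfsg.Agent.Classical.Semisimple.Classify
import Cfsg.Agent.Classical.Semisimple.Primary

/-!
Groups covered by the conjugates of two proper subgroups: passage to quotients, and polynomial
tools over finite fields.
-/

set_option autoImplicit false
set_option linter.style.haveILetI false

namespace CfsgLib.TwoClassCover

open Polynomial Module

/-- `G` is the union of the conjugates of two proper subgroups. -/
def Covered (G : Type*) [Group G] : Prop :=
  ∃ H K : Subgroup G, H ≠ ⊤ ∧ K ≠ ⊤ ∧ ∀ g : G, ∃ x : G, x * g * x⁻¹ ∈ H ∨ x * g * x⁻¹ ∈ K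

theorem map_mk_ne_top {G : Type*} [Group G] (N : Subgroup G) [N.Normal] {H : Subgroup G}
    (hN : N ≤ H) (hH : H ≠ ⊤) : H.map (QuotientGroup.mk' N) ≠ ⊤ := fun h => hH <| by
  have h1 := Subgroup.comap_map_eq (QuotientGroup.mk' N) H
  rw [h, Subgroup.comap_top, QuotientGroup.ker_mk', sup_eq_left.2 hN] at h1
  exact h1.symm

theorem covered_quotient {G : Type*} [Group G] (N : Subgroup G) [N.Normal] {H K : Subgroup G}
    (hH : N ≤ H) (hK : N ≤ K) (hH' : H ≠ ⊤) (hK' : K ≠ ⊤)
    (h : ∀ g : G, ∃ x : G, x * g * x⁻¹ ∈ H ∨ x * g * x⁻¹ ∈ K) : Covered (G ⧸ N) := by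
  refine ⟨H.map (QuotientGroup.mk' N), K.map (QuotientGroup.mk' N), map_mk_ne_top N hH hH',
    map_mk_ne_top N hK hK', fun g => ?_⟩
  obtain ⟨g, rfl⟩ := QuotientGroup.mk'_surjective N g
  obtain ⟨x, hx⟩ := h g
  refine ⟨QuotientGroup.mk' N x, hx.imp ?_ ?_⟩ <;>
    exact fun hm => ⟨_, hm, by simp⟩

variable {F : Type*} [Field F] [Fintype F]

/-- A field extension of given degree with a generator. -/
theorem exists_irreducible_natDegree (d : ℕ) [NeZero d] :
    ∃ P : F[X], P.Monic ∧ Irreducible P ∧ P.natDegree = d := by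
  obtain ⟨p, hp⟩ := CharP.exists F
  haveI : Fact p.Prime := ⟨CharP.char_is_prime F p⟩
  obtain ⟨α, hα⟩ := Field.exists_primitive_element F (FiniteField.Extension F p d)
  have hi : IsIntegral F α := IsIntegral.of_finite F α
  refine ⟨minpoly F α, minpoly.monic hi, minpoly.irreducible hi, ?_⟩
  rw [← IntermediateField.adjoin.finrank hi, hα, IntermediateField.finrank_top',
    FiniteField.finrank_extension]

/-- If all irreducible factors of `χ` have degree divisible by `deg P` then `P` has a root modulo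
`χ`. -/
theorem exists_root_adjoinRoot {P χ : F[X]} (hP : Irreducible P) (hχ : χ.Monic)
    (hfac : ∀ f : F[X], Irreducible f → f ∣ χ → P.natDegree ∣ f.natDegree) :
    ∃ r : AdjoinRoot χ, aeval r P = 0 := by
  classical
  haveI : Fact (Irreducible P) := ⟨hP⟩
  haveI : Module.Finite F (AdjoinRoot χ) := (AdjoinRoot.powerBasis' hχ).finite
  haveI : Finite (AdjoinRoot χ) := Module.finite_of_finite F
  have hres : ∀ I : MaximalSpectrum (AdjoinRoot χ),
      ∃ s : AdjoinRoot χ, aeval s P ∈ I.asIdeal := by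
    intro I
    haveI := I.isMaximal
    letI : Field (AdjoinRoot χ ⧸ I.asIdeal) := Ideal.Quotient.field _
    haveI : Finite (AdjoinRoot χ ⧸ I.asIdeal) := Quotient.finite _
    let π : AdjoinRoot χ →ₐ[F] AdjoinRoot χ ⧸ I.asIdeal := Ideal.Quotient.mkₐ F I.asIdeal
    haveI : Module.Finite F (AdjoinRoot χ ⧸ I.asIdeal) := Module.Finite.of_finite
    have hi : IsIntegral F (π (AdjoinRoot.root χ)) := IsIntegral.of_finite F _
    have h0 : aeval (π (AdjoinRoot.root χ)) χ = 0 := by
      rw [aeval_algHom_apply, AdjoinRoot.aeval_eq, AdjoinRoot.mk_self, map_zero]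
    have htop : IntermediateField.adjoin F {π (AdjoinRoot.root χ)} = ⊤ := by
      refine eq_top_iff.2 fun x _ => ?_
      obtain ⟨y, rfl⟩ := Ideal.Quotient.mk_surjective x
      induction y using AdjoinRoot.induction_on with
      | ih Q =>
        have hQ : Ideal.Quotient.mk I.asIdeal (AdjoinRoot.mk χ Q) =
            aeval (π (AdjoinRoot.root χ)) Q := by
          rw [aeval_algHom_apply, AdjoinRoot.aeval_eq]
          rfl
        rw [hQ]
        exact IntermediateField.algebra_adjoin_le_adjoin F _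
          (Algebra.adjoin_singleton_eq_range_aeval F (π (AdjoinRoot.root χ)) ▸ ⟨Q, rfl⟩)
    have hd : P.natDegree ∣ finrank F (AdjoinRoot χ ⧸ I.asIdeal) := by
      rw [← IntermediateField.finrank_top', ← htop, IntermediateField.adjoin.finrank hi]
      exact hfac _ (minpoly.irreducible hi) (minpoly.dvd _ _ h0)
    haveI : Module.Finite F (AdjoinRoot P) := (AdjoinRoot.powerBasis hP.ne_zero).finite
    haveI : Finite (AdjoinRoot P) := Module.finite_of_finite F
    obtain ⟨φ⟩ := (FiniteField.nonempty_algHom_iff_finrank_dvd (F := F) (K := AdjoinRoot P)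
      (L := AdjoinRoot χ ⧸ I.asIdeal)).2
      (by rwa [(AdjoinRoot.powerBasis hP.ne_zero).finrank, AdjoinRoot.powerBasis_dim])
    obtain ⟨s, hs⟩ := Ideal.Quotient.mk_surjective (φ (AdjoinRoot.root P))
    refine ⟨s, Ideal.Quotient.eq_zero_iff_mem.1 ?_⟩
    show π (aeval s P) = 0
    rw [← aeval_algHom_apply, show π s = φ (AdjoinRoot.root P) from hs, aeval_algHom_apply,
      AdjoinRoot.aeval_eq, AdjoinRoot.mk_self, map_zero]
  choose s hs using hres
  obtain ⟨y, hy⟩ := (IsArtinianRing.quotNilradicalEquivPi (AdjoinRoot χ)).surjective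
    fun I => Ideal.Quotient.mk I.asIdeal (s I)
  obtain ⟨r, rfl⟩ := Ideal.Quotient.mk_surjective y
  have hr : IsNilpotent (aeval r P) := by
    rw [← mem_nilradical, IsArtinianRing.nilradical_eq_iInf, Ideal.mem_iInf]
    intro I
    have h1 : Ideal.Quotient.mk I.asIdeal r = Ideal.Quotient.mk I.asIdeal (s I) := congrFun hy I
    refine Ideal.Quotient.eq_zero_iff_mem.1 ?_
    have h2 : Ideal.Quotient.mkₐ F I.asIdeal (aeval r P) =
        Ideal.Quotient.mkₐ F I.asIdeal (aeval (s I) P) := by
      rw [← aeval_algHom_apply, ← aeval_algHom_apply]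
      exact congrArg (fun z => aeval z P) h1
    exact h2.trans (Ideal.Quotient.eq_zero_iff_mem.2 (hs I))
  obtain ⟨N, hN⟩ := hr
  have hpow : ∀ k : ℕ, aeval (r ^ Fintype.card F ^ k) P = aeval r P ^ Fintype.card F ^ k := by
    intro k
    induction k with
    | zero => simp
    | succ k ih =>
      rw [pow_succ, pow_mul, pow_mul, ← ih]
      exact aeval_algHom_apply (FiniteField.frobeniusAlgHom F (AdjoinRoot χ)) _ P
  refine ⟨r ^ Fintype.card F ^ N, ?_⟩
  rw [hpow, pow_eq_zero_of_le (Nat.lt_pow_self Fintype.one_lt_card).le hN]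

/-- An endomorphism whose characteristic polynomial has all irreducible factors of degree divisible
by `deg P` commutes with a root of `P`. -/
theorem exists_commute_root {V : Type*} [AddCommGroup V] [Module F V] [FiniteDimensional F V]
    (f : Module.End F V) {P : F[X]} (hP : Irreducible P)
    (hfac : ∀ Q : F[X], Irreducible Q → Q ∣ f.charpoly → P.natDegree ∣ Q.natDegree) :
    ∃ J : Module.End F V, aeval J P = 0 ∧ Commute f J := by
  obtain ⟨r, hr⟩ := exists_root_adjoinRoot hP f.charpoly_monic hfac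
  induction r using AdjoinRoot.induction_on with
  | ih R =>
    refine ⟨aeval f R, ?_, by simpa using (Commute.all X R).map (aeval f : F[X] →ₐ[F] Module.End F V)⟩
    rw [← AdjoinRoot.aeval_eq, ← aeval_comp, AdjoinRoot.aeval_eq, AdjoinRoot.mk_eq_zero] at hr
    obtain ⟨c, hc⟩ := hr
    rw [← aeval_comp, hc, map_mul, f.aeval_self_charpoly, zero_mul]

omit [Fintype F]

/-- `t ↦ t + t²` in characteristic two. -/
def artinSchreier (F : Type*) [Field F] [CharP F 2] : F →+ F where
  toFun t := t + t ^ 2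
  map_zero' := by simp
  map_add' a b := by rw [CharTwo.add_sq]; ring

theorem index_artinSchreier [CharP F 2] [Finite F] : (artinSchreier F).range.index = 2 := by
  classical
  haveI := Fintype.ofFinite F
  have hker : Nat.card (artinSchreier F).ker = 2 := by
    rw [Nat.card_eq_two_iff]
    refine ⟨0, ⟨1, by show (1 : F) + 1 ^ 2 = 0; rw [one_pow, CharTwo.add_self_eq_zero]⟩,
      fun h => zero_ne_one (congrArg Subtype.val h), Set.eq_univ_of_forall fun x => ?_⟩
    have hx : (x : F) * (1 + (x : F)) = 0 := by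
      have : (x : F) + (x : F) ^ 2 = 0 := x.2
      linear_combination this
    rcases mul_eq_zero.1 hx with h | h
    · exact Or.inl (Subtype.ext h)
    · exact Or.inr (Subtype.ext (CharTwo.add_eq_zero.1 h).symm)
  rw [← hker]
  have h1 := (artinSchreier F).range.card_mul_index
  have h2 := (artinSchreier F).ker.card_mul_index
  rw [AddSubgroup.index_ker] at h2
  exact Nat.eq_of_mul_eq_mul_left (Nat.card_pos (α := (artinSchreier F).range))
    (h1.trans (h2.symm.trans (mul_comm _ _)))

/-- A value that is not of the form `t + t²`, and the coset property. -/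
theorem exists_not_artinSchreier (F : Type*) [Field F] [CharP F 2] [Finite F] :
    ∃ ν : F, (∀ t, t + t ^ 2 ≠ ν) ∧ ∀ μ : F, (∀ t, t + t ^ 2 ≠ μ) → ∃ t, t + t ^ 2 = μ + ν := by
  obtain ⟨ν, hν⟩ := AddSubgroup.index_eq_two_iff.1 (index_artinSchreier (F := F))
  have h0 := hν 0
  rw [zero_add] at h0
  have hν' : ν ∉ (artinSchreier F).range := by
    rcases h0 with ⟨-, h⟩ | ⟨-, h⟩
    · exact absurd (zero_mem _) h
    · exact h
  refine ⟨ν, fun t h => hν' ⟨t, h⟩, fun μ hμ => ?_⟩
  rcases hν μ with ⟨h, -⟩ | ⟨⟨t, ht⟩, -⟩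
  · exact h
  · exact absurd ht (hμ t)

end CfsgLib.TwoClassCover
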