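import Cfsg.Agent.TwoClassCover.SixNilp
import Cfsg.Agent.LinAlg.Witt.Bases

/-!
The semilinear group `Sp₂(q³).3` inside `Sp₆(q)` and elements of it realising every regular class.
-/

set_option autoImplicit false
set_option linter.style.haveILetI false

namespace CfsgLib.TwoClassCover.Six

open Module Matrix Polynomial CfsgLib.Classical.Symp

universe u

variable {F : Type u} [Field F] [Fintype F] {L : Type u} [Field L] [Algebra F L] [Finite L]

local notation "V" => Fin 3 ⊕ Fin 3 → F
local notation "B" => Cfsg.sympForm 3 F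
local notation "Sp" => Matrix.symplecticGroup (Fin 3) F

theorem mem_bot_of_fixed (hL : finrank F L = 3) {ψ : L ≃ₐ[F] L} (hψ : ψ ≠ 1) {z : L}
    (hz : ψ z = z) : z ∈ (⊥ : IntermediateField F L) := by
  haveI : Module.Finite F L := Module.Finite.of_finite
  haveI : Fact (Nat.Prime 3) := ⟨Nat.prime_three⟩
  have hcard : Nat.card (L ≃ₐ[F] L) = 3 := by rw [IsGalois.card_aut_eq_finrank, hL]
  refine (IsGalois.mem_bot_iff_fixed z).2 fun σ => ?_
  have hle : Subgroup.zpowers ψ ≤ MulAction.stabilizer (L ≃ₐ[F] L) z :=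
    Subgroup.zpowers_le.2 (show ψ • z = z from hz)
  rw [zpowers_eq_top_of_prime_card hcard hψ] at hle
  exact hle (Subgroup.mem_top σ)

theorem exists_sq_sub (hL : finrank F L = 3) {ψ : L ≃ₐ[F] L} (hψ : ψ ≠ 1) :
    ∃ z, ψ (ψ z - z) - (ψ z - z) ≠ 0 := by
  by_contra! h
  haveI : Module.Finite F L := Module.Finite.of_finite
  let D : L →ₗ[F] L := ψ.toLinearMap - LinearMap.id
  let W : Submodule F L := Subalgebra.toSubmodule (⊥ : IntermediateField F L).toSubalgebra
  have hW : finrank F W = 1 := by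
    show finrank F (⊥ : IntermediateField F L) = 1
    exact IntermediateField.finrank_bot
  have h1 : LinearMap.range D ≤ W := by
    rintro _ ⟨z, rfl⟩
    exact mem_bot_of_fixed hL hψ (sub_eq_zero.1 (h z))
  have h2 : LinearMap.ker D ≤ W := fun z hz => mem_bot_of_fixed hL hψ (sub_eq_zero.1 hz)
  have h3 := Submodule.finrank_mono h1
  have h4 := Submodule.finrank_mono h2
  have h5 := LinearMap.finrank_range_add_finrank_ker D
  rw [hW] at h3 h4
  omega

/-- The model form on `L²`. -/
noncomputable def mForm : LinearMap.BilinForm F (L × L) :=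
  LinearMap.mk₂ F (fun u v => Algebra.trace F L (u.1 * v.2 - u.2 * v.1))
    (fun u u' v => by
      rw [← map_add]; congr 1; simp only [Prod.fst_add, Prod.snd_add]; ring)
    (fun c u v => by simp only [Prod.smul_fst, Prod.smul_snd, smul_mul_assoc, ← smul_sub, map_smul])
    (fun u v v' => by
      rw [← map_add]; congr 1; simp only [Prod.fst_add, Prod.snd_add]; ring)
    (fun c u v => by simp only [Prod.smul_fst, Prod.smul_snd, mul_smul_comm, ← smul_sub, map_smul])

theorem mForm_apply (u v : L × L) :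
    mForm (F := F) u v = Algebra.trace F L (u.1 * v.2 - u.2 * v.1) := rfl

/-- An isometry from the model onto the standard space. -/
theorem exists_modelIso (hL : finrank F L = 3) :
    ∃ Φ : (L × L) ≃ₗ[F] V, ∀ u v, B (Φ u) (Φ v) = mForm (F := F) u v := by
  haveI : Module.Finite F L := Module.Finite.of_finite
  have halt : (mForm (F := F) (L := L)).IsAlt := fun u => by
    show Algebra.trace F L (u.1 * u.2 - u.2 * u.1) = 0
    rw [mul_comm, sub_self, map_zero]
  have hker : LinearMap.ker (mForm (F := F) (L := L)) = ⊥ := by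
    refine LinearMap.ker_eq_bot'.2 fun u hu => ?_
    have h1 : u.1 = 0 := (traceForm_nondegenerate F L).1 _ fun t => by
      have := LinearMap.congr_fun hu (0, t)
      simpa [mForm_apply] using this
    have h2 : u.2 = 0 := (traceForm_nondegenerate F L).1 _ fun t => by
      have := LinearMap.congr_fun hu (t, 0)
      simpa [mForm_apply] using this
    exact Prod.ext h1 h2
  obtain ⟨m, b, hm, hef, hee, hff⟩ := CfsgLib.LinAlg.Witt.exists_symplectic_basis _ halt hker
  obtain rfl : m = 3 := by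
    rw [Module.finrank_prod, hL] at hm; omega
  let Φ : (L × L) ≃ₗ[F] V := b.equiv (Pi.basisFun F (Fin 3 ⊕ Fin 3)) (Equiv.sumComm _ _)
  refine ⟨Φ, fun u v => ?_⟩
  have hb : ∀ i j, B (Φ (b i)) (Φ (b j)) = mForm (F := F) (b i) (b j) := by
    have e1 : ∀ i, Φ (b (Sum.inl i)) = stdE i := fun i => by simp [Φ, stdE]
    have e2 : ∀ i, Φ (b (Sum.inr i)) = stdF i := fun i => by simp [Φ, stdF]
    rintro (i | i) (j | j)
    · rw [e1, e1, form_stdE_stdE, hee]
    · rw [e1, e2, form_stdE_stdF, hef]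
    · rw [e2, e1, form_stdF_stdE, ← LinearMap.IsAlt.neg halt, hef]
      split_ifs with h1 h2 h2
      · rfl
      · exact absurd h1.symm h2
      · exact absurd h2.symm h1
      · simp
    · rw [e2, e2, form_stdF_stdF, hff]
  have h : (LinearMap.mk₂ F B form_add_left form_smul_left form_add_right form_smul_right).compl₁₂
      Φ.toLinearMap Φ.toLinearMap = mForm (F := F) := LinearMap.ext_basis b b hb
  exact LinearMap.congr_fun₂ h u v

/-- The semilinear subgroup. -/
def semiSp (Φ : (L × L) ≃ₗ[F] V) : Subgroup Sp where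
  carrier := {A | ∃ ψ : L ≃ₐ[F] L, ∀ (z : L) u,
    spEnd A (Φ (z • u)) = Φ (ψ z • Φ.symm (spEnd A (Φ u)))}
  one_mem' := ⟨1, fun z u => by simp⟩
  mul_mem' := by
    rintro A A' ⟨ψ, hA⟩ ⟨ψ', hA'⟩
    refine ⟨ψ * ψ', fun z u => ?_⟩
    rw [map_mul, Module.End.mul_apply, Module.End.mul_apply, hA', hA, LinearEquiv.apply_symm_apply,
      AlgEquiv.mul_apply]
  inv_mem' := by
    rintro A ⟨ψ, hA⟩
    refine ⟨ψ.symm, fun z u => ?_⟩
    have h1 := hA (ψ.symm z) (Φ.symm (spEnd A⁻¹ (Φ u)))
    rw [AlgEquiv.apply_symm_apply, LinearEquiv.apply_symm_apply, spEnd_apply_inv,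
      LinearEquiv.symm_apply_apply] at h1
    rw [← h1, spEnd_inv_apply]

theorem center_le_semiSp (Φ : (L × L) ≃ₗ[F] V) : Subgroup.center Sp ≤ semiSp Φ := by
  intro A hA
  refine ⟨1, fun z u => ?_⟩
  rcases mem_center_iff.1 hA with h | h <;> simp [spEnd_apply, h, Matrix.neg_mulVec]

theorem semiSp_ne_top (hL : finrank F L = 3) (Φ : (L × L) ≃ₗ[F] V) : semiSp Φ ≠ ⊤ := by
  intro h
  let v : V := stdE 0
  obtain ⟨ψ, hψ⟩ : spT v 1 ∈ semiSp Φ := h ▸ Subgroup.mem_top _
  let T : (L × L) →ₗ[F] (L × L) := Φ.symm.toLinearMap ∘ₗ (spEnd (spT v 1) ∘ₗ Φ.toLinearMap)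
  have hT : ∀ (z : L) u, T (z • u) = ψ z • T u := fun z u => by simp [T, hψ]
  let D : (L × L) →ₗ[F] (L × L) := T - LinearMap.id
  have hd : ∀ u, Φ (D u) = B (Φ u) v • v := fun u => by
    simp [D, T, spEnd_apply, spT_mulVec]
  have hD2 : ∀ u, D (D u) = 0 := fun u => Φ.injective (by
    rw [hd, hd, map_zero, form_smul_left, form_self, mul_zero, zero_smul])
  obtain ⟨w, hw⟩ := exists_form_eq_one (u := v) (fun e => by
    simpa [v, stdE] using congrFun e (Sum.inr 0))
  set x0 := D (Φ.symm (-w)) with hx0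
  have hΦx0 : Φ x0 = v := by
    rw [hx0, hd, LinearEquiv.apply_symm_apply, form_neg_left, form_swap, hw, neg_neg, one_smul]
  have hx00 : x0 ≠ 0 := fun e => by
    rw [e, map_zero] at hΦx0
    simpa [v, stdE] using congrFun hΦx0.symm (Sum.inr 0)
  have hTx0 : T x0 = x0 := sub_eq_zero.1 (hD2 _)
  have hTD : ∀ u, D u = T u - u := fun u => rfl
  by_cases hψ1 : ψ = 1
  · let ι : L →ₗ[F] V := Φ.toLinearMap ∘ₗ ((LinearMap.id : L →ₗ[F] L).smulRight x0)
    have hι : LinearMap.range ι ≤ Submodule.span F {v} := by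
      rintro _ ⟨z, rfl⟩
      have h1 : D (z • Φ.symm (-w)) = z • x0 := by
        rw [hTD, hT, hψ1, AlgEquiv.one_apply, ← smul_sub]
        rfl
      show Φ (z • x0) ∈ _
      rw [← h1, hd]
      exact Submodule.smul_mem _ _ (Submodule.mem_span_singleton_self v)
    have hinj : Function.Injective ι := fun a b hab => smul_left_injective L hx00 (Φ.injective hab)
    have h2 := Submodule.finrank_mono hι
    rw [LinearMap.finrank_range_of_inj hinj, hL] at h2
    have h3 := finrank_span_le_card (R := F) ({v} : Set V)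
    rw [Set.toFinset_singleton, Finset.card_singleton] at h3
    omega
  · obtain ⟨z, hz⟩ := exists_sq_sub hL hψ1
    have h1 : ∀ z, D (z • x0) = (ψ z - z) • x0 := fun z => by rw [hTD, hT, hTx0, sub_smul]
    have h2 := hD2 (z • x0)
    rw [h1, h1] at h2
    exact hz ((smul_eq_zero.1 h2).resolve_right hx00)

/-- A model map as an element of the group. -/
theorem exists_element {Φ : (L × L) ≃ₗ[F] V} (hΦ : ∀ u v, B (Φ u) (Φ v) = mForm (F := F) u v)
    (e : (L × L) →ₗ[F] (L × L)) (he : ∀ u v, mForm (F := F) (e u) (e v) = mForm (F := F) u v) :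
    ∃ A : Sp, ∀ u, spEnd A (Φ u) = Φ (e u) := by
  obtain ⟨A, hA⟩ := exists_spEnd_eq (e := Φ.toLinearMap ∘ₗ (e ∘ₗ Φ.symm.toLinearMap)) (fun x y => by
    obtain ⟨x, rfl⟩ := Φ.surjective x
    obtain ⟨y, rfl⟩ := Φ.surjective y
    simp [hΦ, he])
  exact ⟨A, fun u => by rw [hA]; simp⟩

/-- Elements commuting with a field structure are conjugate into the semilinear group. -/
theorem field_case (hL : finrank F L = 3) {Φ : (L × L) ≃ₗ[F] V}
    (hΦ : ∀ u v, B (Φ u) (Φ v) = mForm (F := F) u v) (g : Sp) (θ : L →ₐ[F] Module.End F V)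
    (hcomm : ∀ (l : L) x, θ l (spEnd g x) = spEnd g (θ l x))
    (hsym : ∀ (l : L) x y, B (θ l x) y = B x (θ l y)) (hiso : ∀ (l : L) x, B (θ l x) x = 0) :
    ∃ h : Sp, h * g * h⁻¹ ∈ semiSp Φ := by
  haveI : Module.Finite F L := Module.Finite.of_finite
  let x : V := stdE 0
  let y : V := stdF 0
  have hxy : B x y = 1 := by simp [x, y, form_stdE_stdF]
  let f : L →ₗ[F] F :=
    { toFun := fun l => B (θ l x) y
      map_add' := fun a b => by simp [form_add_left]
      map_smul' := fun a b => by simp [form_smul_left] }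
  have hT : Function.Injective (Algebra.traceForm F L) :=
    (injective_iff_map_eq_zero _).2 fun a ha => (traceForm_nondegenerate F L).1 a fun y => by
      rw [ha]; rfl
  obtain ⟨c, hc⟩ := (LinearMap.injective_iff_surjective_of_finrank_eq_finrank
    (Subspace.dual_finrank_eq.symm)).1 hT f
  have hf : ∀ l, B (θ l x) y = Algebra.trace F L (c * l) := fun l => by
    have := LinearMap.congr_fun hc l
    rw [Algebra.traceForm_apply] at this
    exact this.symm
  have hc0 : c ≠ 0 := fun h0 => by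
    have h1 := hf 1
    rw [map_one, Module.End.one_apply, hxy, h0, zero_mul, map_zero] at h1
    exact one_ne_zero h1
  let y' := θ c⁻¹ y
  have hxy' : ∀ l, B (θ l x) y' = Algebra.trace F L l := fun l => by
    rw [show B (θ l x) y' = B (θ (c⁻¹ * l) x) y by
      rw [map_mul, Module.End.mul_apply, hsym c⁻¹]]
    rw [hf, mul_inv_cancel_left₀ hc0]
  have hiso2 : ∀ s t x, B (θ s x) (θ t x) = 0 := fun s t x => by
    rw [← hsym, ← Module.End.mul_apply, ← map_mul, hiso]
  let Ψ : (L × L) →ₗ[F] V :=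
    { toFun := fun u => θ u.1 x + θ u.2 y'
      map_add' := fun u v => by simp only [Prod.fst_add, Prod.snd_add, map_add, LinearMap.add_apply]; abel
      map_smul' := fun a u => by simp [smul_add] }
  have hΨB : ∀ u v, B (Ψ u) (Ψ v) = mForm (F := F) u v := by
    intro u v
    have e1 : ∀ s t, B (θ s x) (θ t y') = Algebra.trace F L (s * t) := fun s t => by
      rw [← hsym, ← Module.End.mul_apply, ← map_mul, mul_comm, hxy']
    have e2 : ∀ s t, B (θ s y') (θ t x) = -Algebra.trace F L (s * t) := fun s t => by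
      rw [form_swap, e1, mul_comm]
    show B (θ u.1 x + θ u.2 y') (θ v.1 x + θ v.2 y') = _
    rw [form_add_left, form_add_right, form_add_right, hiso2, hiso2, e1, e2, mForm_apply, map_sub]
    ring
  have hinj : Function.Injective Ψ := (injective_iff_map_eq_zero Ψ).2 fun u hu => by
    have h0 : ∀ v, mForm (F := F) u v = 0 := fun v => by rw [← hΨB, hu, form_zero_left]
    have h1 : u.1 = 0 := (traceForm_nondegenerate F L).1 _ fun t => by
      simpa [mForm_apply] using h0 (0, t)
    have h2 : u.2 = 0 := (traceForm_nondegenerate F L).1 _ fun t => by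
      simpa [mForm_apply] using h0 (t, 0)
    exact Prod.ext h1 h2
  let e := LinearEquiv.ofBijective Ψ ⟨hinj, (LinearMap.injective_iff_surjective_of_finrank_eq_finrank
    (by rw [Module.finrank_prod, hL, Module.finrank_fintype_fun_eq_card, Fintype.card_sum,
      Fintype.card_fin])).1 hinj⟩
  obtain ⟨h, hh⟩ := exists_spEnd_eq (e := Φ.toLinearMap ∘ₗ e.symm.toLinearMap) (fun a b => by
    obtain ⟨a, rfl⟩ := e.surjective a
    obtain ⟨b, rfl⟩ := e.surjective b
    simp [hΦ]
    exact (hΨB a b).symm)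
  have hhinv : ∀ u, spEnd h⁻¹ (Φ u) = e u := fun u => by
    have : spEnd h (e u) = Φ u := by rw [hh]; simp
    rw [← this, spEnd_inv_apply]
  refine ⟨h, 1, fun z u => ?_⟩
  have heθ : ∀ (z : L) u, e (z • u) = θ z (e u) := fun z u => by
    show θ (z * u.1) x + θ (z * u.2) y' = θ z (θ u.1 x + θ u.2 y')
    simp [map_mul]
  simp only [map_mul, Module.End.mul_apply, hhinv, heθ, AlgEquiv.one_apply, ← hcomm]
  rw [hh]
  simp only [LinearMap.comp_apply, LinearEquiv.coe_coe, LinearEquiv.symm_apply_apply]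
  congr 1
  apply e.injective
  rw [heθ, LinearEquiv.apply_symm_apply, LinearEquiv.apply_symm_apply]

theorem fst_smul' (a : F) (u : L × L) : (a • u).1 = algebraMap F L a * u.1 := Algebra.smul_def a u.1

theorem snd_smul' (a : F) (u : L × L) : (a • u).2 = algebraMap F L a * u.2 := Algebra.smul_def a u.2

variable [CharP F 3]

theorem frob_facts (hL : finrank F L = 3) :
    (∀ z, FiniteField.frobeniusAlgEquivOfAlgebraic F L (FiniteField.frobeniusAlgEquivOfAlgebraic F L
      (FiniteField.frobeniusAlgEquivOfAlgebraic F L z)) = z) ∧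
    FiniteField.frobeniusAlgEquivOfAlgebraic F L ≠ 1 := by
  have h := FiniteField.orderOf_frobeniusAlgEquivOfAlgebraic F L
  rw [hL] at h
  refine ⟨fun z => ?_, fun h1 => ?_⟩
  · have h3 : FiniteField.frobeniusAlgEquivOfAlgebraic F L ^ 3 = 1 := by rw [← h, pow_orderOf_eq_one]
    exact AlgEquiv.congr_fun h3 z
  · rw [h1, orderOf_one] at h
    omega

/-- The trace as a sum. -/
theorem trace_sum (hL : finrank F L = 3) (z : L) :
    algebraMap F L (Algebra.trace F L z) = z + FiniteField.frobeniusAlgEquivOfAlgebraic F L z +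
      FiniteField.frobeniusAlgEquivOfAlgebraic F L (FiniteField.frobeniusAlgEquivOfAlgebraic F L z) := by
  rw [FiniteField.algebraMap_trace_eq_sum_pow, hL, Nat.card_eq_fintype_card]
  simp only [Finset.sum_range_succ, Finset.sum_range_zero, zero_add, pow_zero, pow_one,
    FiniteField.coe_frobeniusAlgEquivOfAlgebraic, ← pow_mul, sq]

/-- A semilinear element with `n² ≠ 0` for `c ≠ ±2`. -/
theorem exists_model_generic (hL : finrank F L = 3) {Φ : (L × L) ≃ₗ[F] V}
    (hΦ : ∀ u v, B (Φ u) (Φ v) = mForm (F := F) u v) {c : F} (hc : c ^ 2 ≠ 4) :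
    ∃ A ∈ semiSp Φ, (∀ x, np A c (np A c (np A c x)) = 0) ∧ ∃ x, np A c (np A c x) ≠ 0 := by
  haveI : Module.Finite F L := Module.Finite.of_finite
  haveI : CharP L 3 := charP_of_injective_algebraMap (algebraMap F L).injective 3
  have hL3 : (3 : L) = 0 := by exact_mod_cast CharP.cast_eq_zero L 3
  have hF3 : (3 : F) = 0 := by exact_mod_cast CharP.cast_eq_zero F 3
  obtain ⟨φ, hφdef⟩ : ∃ φ : L ≃ₐ[F] L, φ = FiniteField.frobeniusAlgEquivOfAlgebraic F L := ⟨_, rfl⟩
  have hφ3 : ∀ z, φ (φ (φ z)) = z := by subst hφdef; exact (frob_facts hL).1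
  let C := algebraMap F L c
  have hC : φ C = C := φ.commutes c
  let e : (L × L) →ₗ[F] (L × L) :=
    { toFun := fun u => (-φ u.2, φ u.1 + C * φ u.2)
      map_add' := fun u v => by
        refine Prod.ext ?_ ?_ <;> simp only [Prod.fst_add, Prod.snd_add, map_add] <;> ring
      map_smul' := fun a u => by
        refine Prod.ext ?_ ?_ <;>
          simp only [fst_smul', snd_smul', map_mul, AlgEquiv.commutes, RingHom.id_apply] <;>
          ring }
  have he : ∀ u v, mForm (F := F) (e u) (e v) = mForm (F := F) u v := fun u v => by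
    rw [mForm_apply, mForm_apply, ← Algebra.trace_eq_of_algEquiv φ (u.1 * v.2 - u.2 * v.1)]
    congr 1
    show (-φ u.2) * (φ v.1 + C * φ v.2) - (φ u.1 + C * φ u.2) * (-φ v.2) = _
    rw [map_sub, map_mul, map_mul]; ring
  obtain ⟨A, hA⟩ := exists_element hΦ e he
  have hA' : ∀ u : L × L, spEnd A⁻¹ (Φ u) = Φ (C * φ (φ u.1) + φ (φ u.2), -φ (φ u.1)) := fun u => by
    have h1 : spEnd A (Φ (C * φ (φ u.1) + φ (φ u.2), -φ (φ u.1))) = Φ u := by
      rw [hA]
      congr 1
      refine Prod.ext ?_ ?_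
      · show -φ (-φ (φ u.1)) = u.1
        rw [map_neg, neg_neg, hφ3]
      · show φ (C * φ (φ u.1) + φ (φ u.2)) + C * φ (-φ (φ u.1)) = u.2
        rw [map_add, map_mul, hC, map_neg, hφ3, hφ3]; ring
    rw [← h1, spEnd_inv_apply]
  have hn : ∀ u : L × L, np A c (Φ u) = Φ (-φ u.2 + C * φ (φ u.1) + φ (φ u.2) - C * u.1,
      φ u.1 + C * φ u.2 - φ (φ u.1) - C * u.2) := fun u => by
    rw [np_apply, adjSum, LinearMap.add_apply, hA, hA', ← map_add, ← map_smul, ← map_sub]
    congr 1
    refine Prod.ext ?_ ?_ <;>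
      simp only [e, LinearMap.coe_mk, AddHom.coe_mk, Prod.fst_add, Prod.snd_add, Prod.fst_sub,
        Prod.snd_sub, fst_smul', snd_smul'] <;>
      ring
  refine ⟨A, ⟨φ, fun z u => ?_⟩, fun x => ?_, ?_⟩
  · rw [hA, hA, LinearEquiv.symm_apply_apply]
    congr 1
    refine Prod.ext ?_ ?_ <;>
      simp only [e, LinearMap.coe_mk, AddHom.coe_mk, Prod.smul_fst, Prod.smul_snd, smul_eq_mul,
        map_mul] <;>
      ring
  · -- the cube of a sum of commuting maps
    let E := spEnd A
    let E' := spEnd A⁻¹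
    haveI : CharP (Module.End F V) 3 :=
      charP_of_injective_algebraMap (algebraMap F (Module.End F V)).injective 3
    haveI : Fact (Nat.Prime 3) := ⟨Nat.prime_three⟩
    have hcm : Commute E E' := by
      show E * E' = E' * E
      rw [← map_mul, ← map_mul, mul_inv_cancel, inv_mul_cancel]
    have h3 : np A c ^ 3 = E ^ 3 + E' ^ 3 - algebraMap F _ (c ^ 3) := by
      rw [np, adjSum, sub_pow_char_of_commute _ (Algebra.commute_algebraMap_right c (E + E')),
        add_pow_char_of_commute _ hcm, map_pow]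
    have h4 : np A c ^ 3 = 0 := by
      rw [h3]
      refine LinearMap.ext fun y => ?_
      obtain ⟨u, rfl⟩ := Φ.surjective y
      simp only [LinearMap.sub_apply, LinearMap.add_apply, pow_succ, pow_zero, one_mul,
        Module.End.mul_apply, LinearMap.zero_apply, Module.algebraMap_end_apply, E, E', hA, hA']
      rw [← map_add, ← map_smul, ← map_sub, ← map_zero Φ]
      congr 1
      refine Prod.ext ?_ ?_ <;>
        simp only [e, LinearMap.coe_mk, AddHom.coe_mk, Prod.fst_add, Prod.snd_add, Prod.fst_sub,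
          Prod.snd_sub, fst_smul', snd_smul', Prod.fst_zero, Prod.snd_zero,
          map_mul, map_add, map_neg, map_pow, hC, hφ3]
      · linear_combination (-(C * u.1)) * hL3
      · linear_combination (-(C * u.2)) * hL3
    have h5 := LinearMap.congr_fun h4 x
    rw [pow_succ, pow_two, Module.End.mul_apply, Module.End.mul_apply] at h5
    exact h5
  · obtain ⟨z, hz⟩ := Algebra.trace_surjective F L 1
    refine ⟨Φ (z, 0), fun h => ?_⟩
    rw [hn, hn] at h
    have h1 : (c ^ 2 - 1 : F) = 0 := by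
      refine (algebraMap F L).injective ?_
      have h2 := congrArg Prod.fst (Φ.injective (h.trans (map_zero Φ).symm))
      simp only [map_zero, mul_zero, neg_zero, map_add, map_sub, map_mul, map_neg, hC, hφ3,
        Prod.fst_zero] at h2
      have h3 := trace_sum (F := F) hL z
      rw [← hφdef, hz, map_one] at h3
      rw [map_sub, map_pow, map_one, map_zero]
      linear_combination h2 + (C ^ 2 - 1) * h3 + (C ^ 2 * φ (φ z) - z) * hL3
    exact hc (by linear_combination h1 - hF3)

/-- Semilinear elements with `n² ≠ 0` for `c = 2`, of every pairing. -/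
theorem exists_model_two (hL : finrank F L = 3) {Φ : (L × L) ≃ₗ[F] V}
    (hΦ : ∀ u v, B (Φ u) (Φ v) = mForm (F := F) u v) {s : F} (hs : s ≠ 0) :
    ∃ A ∈ semiSp Φ, (∀ x, np A 2 (np A 2 (np A 2 x)) = 0) ∧ ∃ x, beta A 2 x = s := by
  haveI : Module.Finite F L := Module.Finite.of_finite
  haveI : CharP L 3 := charP_of_injective_algebraMap (algebraMap F L).injective 3
  have hL3 : (3 : L) = 0 := by exact_mod_cast CharP.cast_eq_zero L 3
  obtain ⟨φ, hφdef⟩ : ∃ φ : L ≃ₐ[F] L, φ = FiniteField.frobeniusAlgEquivOfAlgebraic F L := ⟨_, rfl⟩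
  have hφ3 : ∀ z, φ (φ (φ z)) = z := by subst hφdef; exact (frob_facts hL).1
  have hφ1 : φ ≠ 1 := by subst hφdef; exact (frob_facts hL).2
  obtain ⟨τ0, hτ0⟩ := Algebra.trace_surjective F L 1
  have hT0 : τ0 + φ τ0 + φ (φ τ0) = 1 := by
    have h := trace_sum (F := F) hL τ0
    rw [← hφdef, hτ0, map_one] at h
    exact h.symm
  -- the element with parameter `ν • τ0`
  have hel : ∀ ν : F, ∃ A ∈ semiSp Φ, ∀ u : L × L,
      spEnd A (Φ u) = Φ (φ u.1 + algebraMap F L ν * τ0 * φ u.2, φ u.2) := by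
    intro ν
    let e : (L × L) →ₗ[F] (L × L) :=
      { toFun := fun u => (φ u.1 + algebraMap F L ν * τ0 * φ u.2, φ u.2)
        map_add' := fun u v => by
          refine Prod.ext ?_ ?_ <;> simp only [Prod.fst_add, Prod.snd_add, map_add] <;> ring
        map_smul' := fun a u => by
          refine Prod.ext ?_ ?_ <;>
            simp only [fst_smul', snd_smul', map_mul, AlgEquiv.commutes, RingHom.id_apply] <;>
            ring }
    have he : ∀ u v, mForm (F := F) (e u) (e v) = mForm (F := F) u v := fun u v => by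
      rw [mForm_apply, mForm_apply, ← Algebra.trace_eq_of_algEquiv φ (u.1 * v.2 - u.2 * v.1)]
      congr 1
      show (φ u.1 + algebraMap F L ν * τ0 * φ u.2) * φ v.2 -
        φ u.2 * (φ v.1 + algebraMap F L ν * τ0 * φ v.2) = _
      rw [map_sub, map_mul, map_mul]; ring
    obtain ⟨A, hA⟩ := exists_element hΦ e he
    refine ⟨A, ⟨φ, fun z u => ?_⟩, hA⟩
    rw [hA, hA, LinearEquiv.symm_apply_apply]
    congr 1
    refine Prod.ext ?_ ?_ <;>
      simp only [e, LinearMap.coe_mk, AddHom.coe_mk, Prod.smul_fst, Prod.smul_snd, smul_eq_mul,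
        map_mul] <;>
      ring
  have hcube : ∀ (ν : F) (A : Sp),
      (∀ u : L × L, spEnd A (Φ u) = Φ (φ u.1 + algebraMap F L ν * τ0 * φ u.2, φ u.2)) →
      ∀ u : L × L, spEnd A (spEnd A (spEnd A (Φ u))) = Φ (u.1 + algebraMap F L ν * u.2, u.2) := by
    intro ν A hA u
    rw [hA, hA, hA]
    congr 1
    refine Prod.ext ?_ ?_ <;> simp only [map_add, map_mul, AlgEquiv.commutes, hφ3]
    linear_combination (algebraMap F L ν * u.2) * hT0
  have hn3 : ∀ (ν : F) (A : Sp),
      (∀ u : L × L, spEnd A (Φ u) = Φ (φ u.1 + algebraMap F L ν * τ0 * φ u.2, φ u.2)) →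
      ∀ x, np A 2 (np A 2 (np A 2 x)) = 0 := by
    intro ν A hA x
    haveI : CharP (Module.End F V) 3 :=
      charP_of_injective_algebraMap (algebraMap F (Module.End F V)).injective 3
    haveI : Fact (Nat.Prime 3) := ⟨Nat.prime_three⟩
    let E := spEnd A
    let E' := spEnd A⁻¹
    have hcm : Commute E E' := by
      show E * E' = E' * E
      rw [← map_mul, ← map_mul, mul_inv_cancel, inv_mul_cancel]
    have h3 : np A 2 ^ 3 = E ^ 3 + E' ^ 3 - algebraMap F _ ((2 : F) ^ 3) := by
      rw [np, adjSum, sub_pow_char_of_commute _ (Algebra.commute_algebraMap_right (2 : F) (E + E')),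
        add_pow_char_of_commute _ hcm, map_pow]
    have hcube' : ∀ u : L × L, E' (E' (E' (Φ u))) = Φ (u.1 - algebraMap F L ν * u.2, u.2) := by
      intro u
      have h1 : E (E (E (Φ (u.1 - algebraMap F L ν * u.2, u.2)))) = Φ u := by
        show spEnd A (spEnd A (spEnd A _)) = _
        rw [hcube ν A hA]
        congr 1
        exact Prod.ext (by ring) rfl
      rw [← h1]
      simp only [E, E', spEnd_inv_apply]
    have h4 : np A 2 ^ 3 = 0 := by
      rw [h3]
      refine LinearMap.ext fun y => ?_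
      obtain ⟨u, rfl⟩ := Φ.surjective y
      simp only [LinearMap.sub_apply, LinearMap.add_apply, pow_succ, pow_zero, one_mul,
        Module.End.mul_apply, LinearMap.zero_apply, Module.algebraMap_end_apply]
      rw [hcube' u, show E (E (E (Φ u))) = _ from hcube ν A hA u, ← map_add, ← map_smul, ← map_sub,
        ← map_zero Φ]
      congr 1
      refine Prod.ext ?_ ?_ <;>
        simp only [Prod.fst_add, Prod.snd_add, Prod.fst_sub, Prod.snd_sub, fst_smul',
          snd_smul', Prod.fst_zero, Prod.snd_zero, map_mul, map_ofNat]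
      · linear_combination (-2 * u.1) * hL3
      · linear_combination (-2 * u.2) * hL3
    have h5 := LinearMap.congr_fun h4 x
    rw [pow_succ, pow_two, Module.End.mul_apply, Module.End.mul_apply] at h5
    exact h5
  obtain ⟨A1, hA1K, hA1⟩ := hel 1
  -- `n² ≠ 0` for the base element
  have h2 : ∃ x, np A1 2 (np A1 2 x) ≠ 0 := by
    obtain ⟨w, hw⟩ : ∃ w : L, φ w - w ≠ 0 := by
      by_contra! h
      exact hφ1 (AlgEquiv.ext fun w => by rw [sub_eq_zero.1 (h w)]; rfl)
    refine ⟨Φ (0, w), fun h => hw ?_⟩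
    have h' := congrArg (fun y => spEnd A1 (spEnd A1 y)) h
    simp only [map_zero] at h'
    have e : spEnd A1 (spEnd A1 (np A1 2 (np A1 2 (Φ (0, w))))) =
        nil1 A1 (nil1 A1 (nil1 A1 (nil1 A1 (Φ (0, w))))) := by
      rw [← np_two, ← np_two, np_comm]
    rw [e] at h'
    have hN : ∀ u : L × L, nil1 A1 (Φ u) = Φ (φ u.1 + τ0 * φ u.2 - u.1, φ u.2 - u.2) := fun u => by
      rw [nil1_apply, hA1, ← map_sub, map_one, one_mul]
      rfl
    rw [hN, hN, hN, hN, ← map_zero Φ] at h'
    have h1 := congrArg Prod.fst (Φ.injective h')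
    simp only [map_zero, map_sub, map_add, map_mul, hφ3, Prod.fst_zero] at h1
    linear_combination h1 - (φ w - w) * hT0 +
      (φ w * τ0 + w * τ0 + w * φ τ0 + w * φ (φ τ0) - 2 * (τ0 * φ (φ w)) - 2 * (φ τ0 * φ (φ w))) * hL3
  obtain ⟨x1, hx1⟩ := exists_beta_ne (hn3 1 A1 hA1) (Or.inr rfl) h2
  set ν := s / beta A1 2 x1 with hν
  obtain ⟨A, hAK, hA⟩ := hel ν
  refine ⟨A, hAK, hn3 ν A hA, ?_⟩
  -- the similitude `(a, b) ↦ (ν a, b)`
  obtain ⟨u, rfl⟩ := Φ.surjective x1
  let S : L × L → L × L := fun u => (algebraMap F L ν * u.1, u.2)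
  have hAS : ∀ u, spEnd A (Φ (S u)) = Φ (S (Φ.symm (spEnd A1 (Φ u)))) := fun u => by
    rw [hA, hA1, LinearEquiv.symm_apply_apply]
    congr 1
    refine Prod.ext ?_ rfl
    simp only [S, map_mul, AlgEquiv.commutes, map_one, one_mul]
    ring
  have hAS' : ∀ u, spEnd A⁻¹ (Φ (S u)) = Φ (S (Φ.symm (spEnd A1⁻¹ (Φ u)))) := fun u => by
    have h1 := hAS (Φ.symm (spEnd A1⁻¹ (Φ u)))
    rw [LinearEquiv.apply_symm_apply, spEnd_apply_inv, LinearEquiv.symm_apply_apply] at h1
    rw [← h1, spEnd_inv_apply]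
  have hSadd : ∀ u v, S (u + v) = S u + S v := fun u v => Prod.ext (mul_add _ _ _) rfl
  have hSsmul : ∀ (a : F) u, S (a • u) = a • S u := fun a u => by
    refine Prod.ext ?_ rfl
    simp [S, mul_smul_comm]
  have hnS : ∀ u, np A 2 (Φ (S u)) = Φ (S (Φ.symm (np A1 2 (Φ u)))) := fun u => by
    rw [np_apply, np_apply, adjSum, LinearMap.add_apply, adjSum, LinearMap.add_apply, hAS, hAS',
      map_sub, map_add, map_smul, LinearEquiv.symm_apply_apply, sub_eq_add_neg _ ((2 : F) • u),
      ← neg_smul, hSadd, hSadd, hSsmul, map_add, map_add, map_smul, neg_smul, ← sub_eq_add_neg]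
  refine ⟨Φ (S u), ?_⟩
  have hBS : ∀ a b, B (Φ (S a)) (Φ (S b)) = ν * B (Φ a) (Φ b) := fun a b => by
    rw [hΦ, hΦ, mForm_apply, mForm_apply,
      show ∀ z, ν * Algebra.trace F L z = Algebra.trace F L (ν • z) from fun z => by
        rw [map_smul, smul_eq_mul], Algebra.smul_def]
    congr 1
    simp only [S]; ring
  show B (np A 2 (np A 2 (Φ (S u)))) (spEnd A (Φ (S u))) = s
  rw [hnS, hnS, hAS, hBS, LinearEquiv.apply_symm_apply, LinearEquiv.apply_symm_apply,
    LinearEquiv.apply_symm_apply]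
  show ν * beta A1 2 (Φ u) = s
  rw [hν, div_mul_cancel₀ _ hx1]

/-- A semilinear element with two blocks of size three. -/
theorem exists_model_three (hL : finrank F L = 3) {Φ : (L × L) ≃ₗ[F] V}
    (hΦ : ∀ u v, B (Φ u) (Φ v) = mForm (F := F) u v) :
    ∃ A ∈ semiSp Φ, (∀ x, nil1 A (nil1 A (nil1 A x)) = 0) ∧ ∃ x, nil1 A (nil1 A x) ≠ 0 := by
  haveI : Module.Finite F L := Module.Finite.of_finite
  haveI : CharP L 3 := charP_of_injective_algebraMap (algebraMap F L).injective 3
  have hL3 : (3 : L) = 0 := by exact_mod_cast CharP.cast_eq_zero L 3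
  obtain ⟨φ, hφdef⟩ : ∃ φ : L ≃ₐ[F] L, φ = FiniteField.frobeniusAlgEquivOfAlgebraic F L := ⟨_, rfl⟩
  have hφ3 : ∀ z, φ (φ (φ z)) = z := by subst hφdef; exact (frob_facts hL).1
  have hφ1 : φ ≠ 1 := by subst hφdef; exact (frob_facts hL).2
  let e : (L × L) →ₗ[F] (L × L) := φ.toLinearMap.prodMap φ.toLinearMap
  obtain ⟨A, hA⟩ := exists_element hΦ e fun u v => by
    rw [mForm_apply, mForm_apply, ← Algebra.trace_eq_of_algEquiv φ (u.1 * v.2 - u.2 * v.1)]
    congr 1
    show φ u.1 * φ v.2 - φ u.2 * φ v.1 = _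
    rw [map_sub, map_mul, map_mul]
  have hN : ∀ u : L × L, nil1 A (Φ u) = Φ (φ u.1 - u.1, φ u.2 - u.2) := fun u => by
    rw [nil1_apply, hA, ← map_sub]; rfl
  refine ⟨A, ⟨φ, fun z u => ?_⟩, fun x => ?_, ?_⟩
  · rw [hA, hA, LinearEquiv.symm_apply_apply]
    congr 1
    exact Prod.ext (map_mul φ z u.1) (map_mul φ z u.2)
  · obtain ⟨u, rfl⟩ := Φ.surjective x
    rw [hN, hN, hN, ← map_zero Φ]
    congr 1
    refine Prod.ext ?_ ?_ <;> simp only [map_sub, hφ3, Prod.fst_zero, Prod.snd_zero]
    · linear_combination (φ u.1 - φ (φ u.1)) * hL3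
    · linear_combination (φ u.2 - φ (φ u.2)) * hL3
  · obtain ⟨z, hz⟩ := exists_sq_sub hL hφ1
    refine ⟨Φ (z, 0), ?_⟩
    rw [hN, hN, ← map_zero Φ]
    exact fun h => hz (congrArg Prod.fst (Φ.injective h))

end CfsgLib.TwoClassCover.Six
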