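import Cfsg.Agent.TwoClassCover.Basic
import Cfsg.Agent.Classical.Symp.Simple
import Cfsg.Agent.Classical.Symp.Frames
import Cfsg.Agent.G2Oct.NormForm

/-!
Self-adjoint endomorphisms of the six-dimensional symplectic space, invariant planes, and conjugacy
through bases with equal Gram matrices.
-/

set_option autoImplicit false
set_option linter.style.haveILetI false

namespace CfsgLib.TwoClassCover.Six

open Module Matrix Polynomial CfsgLib.Classical.Symp

variable {F : Type*} [Field F]

local notation "V" => Fin 3 ⊕ Fin 3 → F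
local notation "B" => Cfsg.sympForm 3 F
local notation "Mat" => Matrix (Fin 3 ⊕ Fin 3) (Fin 3 ⊕ Fin 3) F
local notation "Sp" => Matrix.symplecticGroup (Fin 3) F

/-- A symplectic matrix as an endomorphism. -/
noncomputable def spEnd : Sp →* Module.End F V where
  toFun g := Matrix.toLinAlgEquiv' (g : Mat)
  map_one' := by simp
  map_mul' g h := by rw [Submonoid.coe_mul, map_mul]

theorem spEnd_apply (g : Sp) (x : V) : spEnd g x = (g : Mat) *ᵥ x := rfl

theorem spEnd_form (g : Sp) (x y : V) : B (spEnd g x) (spEnd g y) = B x y := form_mulVec g x y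

theorem spEnd_inv_apply (g : Sp) (x : V) : spEnd g⁻¹ (spEnd g x) = x := inv_mulVec_cancel g x

theorem spEnd_apply_inv (g : Sp) (x : V) : spEnd g (spEnd g⁻¹ x) = x := mulVec_inv_cancel g x

theorem spEnd_ext {g h : Sp} (H : ∀ x, spEnd g x = spEnd h x) : g = h := symp_ext H

theorem exists_spEnd_eq {e : V →ₗ[F] V} (he : ∀ x y, B (e x) (e y) = B x y) :
    ∃ g : Sp, spEnd g = e := by
  refine ⟨⟨LinearMap.toMatrix' e, (mem_symplecticGroup_iff_form _).2 fun x y => ?_⟩,
    LinearMap.ext fun x => LinearMap.toMatrix'_mulVec e x⟩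
  simp only [LinearMap.toMatrix'_mulVec, he]

/-- The sum of an element and its inverse. -/
noncomputable def adjSum (g : Sp) : Module.End F V := spEnd g + spEnd g⁻¹

theorem adjSum_symm (g : Sp) (x y : V) : B (adjSum g x) y = B x (adjSum g y) := by
  simp only [adjSum, LinearMap.add_apply, form_add_left, form_add_right]
  rw [← spEnd_form g⁻¹ (spEnd g x) y, ← spEnd_form g (spEnd g⁻¹ x) y, spEnd_inv_apply,
    spEnd_apply_inv]
  ring

theorem adjSum_commute (g : Sp) : Commute (adjSum g) (spEnd g) := by
  show _ * _ = _ * _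
  rw [adjSum, add_mul, mul_add, ← map_mul, ← map_mul, ← map_mul, inv_mul_cancel, mul_inv_cancel]

theorem spEnd_sq (g : Sp) (x : V) :
    spEnd g (spEnd g x) = adjSum g (spEnd g x) - x := by
  rw [adjSum, LinearMap.add_apply, spEnd_inv_apply, add_sub_cancel_right]

theorem aeval_symm (g : Sp) (P : F[X]) : ∀ x y, B (aeval (adjSum g) P x) y = B x (aeval (adjSum g) P y) := by
  induction P using Polynomial.induction_on with
  | C a =>
    intro x y
    simp [Module.algebraMap_end_apply, form_smul_left, form_smul_right]
  | add p q hp hq =>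
    intro x y
    simp [form_add_left, form_add_right, hp, hq]
  | monomial k a hk =>
    intro x y
    rw [pow_succ, ← mul_assoc, map_mul, aeval_X, Module.End.mul_apply, Module.End.mul_apply, hk,
      adjSum_symm, ← Module.End.mul_apply, ← Module.End.mul_apply,
      show adjSum g * aeval (adjSum g) (C a * X ^ k) = aeval (adjSum g) (C a * X ^ k) * adjSum g by
        have h := ((Commute.all (X : F[X]) (C a * X ^ k)).map
          (aeval (adjSum g) : F[X] →ₐ[F] Module.End F V)).eq
        rwa [aeval_X] at h]

theorem aeval_isotropic (h2 : (2 : F) ≠ 0) (g : Sp) (P : F[X]) (x : V) :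
    B (aeval (adjSum g) P x) x = 0 := by
  have h := aeval_symm g P x x
  rw [form_swap x] at h
  exact (mul_eq_zero.1 (show (2 : F) * B (aeval (adjSum g) P x) x = 0 by linear_combination h)).resolve_left h2

/-- The orthogonal of a subspace. -/
def orthSub (U : Submodule F V) : Submodule F V where
  carrier := {v | ∀ u ∈ U, B u v = 0}
  zero_mem' u _ := form_zero_right u
  add_mem' ha hb u hu := by rw [form_add_right, ha u hu, hb u hu, add_zero]
  smul_mem' c a ha u hu := by rw [form_smul_right, ha u hu, mul_zero]

theorem finrank_orthSub (U : Submodule F V) : finrank F (orthSub U) + finrank F U = 6 := by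
  let b := Module.finBasis F U
  have hli : LinearIndependent F (fun i => (b i : V)) :=
    b.linearIndependent.map' U.subtype U.ker_subtype
  have hker : orthSub U = LinearMap.ker (Frames.pairing fun i => (b i : V)) := by
    refine le_antisymm (fun v (hv : v ∈ orthSub U) => _root_.funext fun i => hv _ (b i).2)
      fun v hv u hu => ?_
    have h1 : ∀ i, B (b i : V) v = 0 := fun i => congrFun hv i
    have h2 := congrArg Subtype.val (b.sum_repr ⟨u, hu⟩)
    simp only [Submodule.coe_sum, Submodule.coe_smul] at h2
    rw [← h2, form_swap, form_sum_right, neg_eq_zero]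
    exact Finset.sum_eq_zero fun i _ => by rw [form_smul_right, form_swap, h1 i, neg_zero, mul_zero]
  rw [hker]
  exact Frames.finrank_ker_pairing hli

theorem isotropic_finrank_le (U : Submodule F V) (h : ∀ u ∈ U, ∀ v ∈ U, B u v = 0) :
    finrank F U ≤ 3 := by
  have h1 := Submodule.finrank_mono (show U ≤ orthSub U from fun v hv u hu => h u hu v hv)
  have h2 := finrank_orthSub U
  omega

/-- A self-adjoint map with isotropic values has even rank. -/
theorem even_finrank_range {T : Module.End F V} (hsym : ∀ x y, B (T x) y = B x (T y))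
    (halt : ∀ x, B (T x) x = 0) : Even (finrank F (LinearMap.range T)) := by
  obtain ⟨C, hC⟩ := Submodule.exists_isCompl (LinearMap.ker T)
  let β : C →ₗ[F] C →ₗ[F] F := LinearMap.mk₂ F (fun x y => B (T x) y)
    (fun x x' y => by simp [form_add_left]) (fun c x y => by simp [form_smul_left])
    (fun x y y' => by simp [form_add_right]) (fun c x y => by simp [form_smul_right])
  have hC' : finrank F C = finrank F (LinearMap.range T) := by
    have h1 := Submodule.finrank_add_eq_of_isCompl hC
    have h2 := LinearMap.finrank_range_add_finrank_ker T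
    omega
  rw [← hC']
  refine CfsgLib.G2Oct.even_finrank_of_alternating _ rfl β (fun x => halt x) fun x hx => ?_
  have h1 : T x = 0 := by
    refine eq_zero_of_form_eq_zero fun y => ?_
    obtain ⟨k, hk, c, hc, rfl⟩ := Submodule.mem_sup.1
      (hC.sup_eq_top.symm ▸ (Submodule.mem_top : y ∈ ⊤))
    rw [form_add_right, show B (T x) c = 0 from hx ⟨c, hc⟩, hsym, LinearMap.mem_ker.1 hk,
      form_zero_right, add_zero]
  exact Subtype.ext ((Submodule.disjoint_def.1 hC.disjoint) _ h1 x.2)

/-- An invariant non-degenerate plane. -/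
def HasPlane (g : Sp) : Prop :=
  ∃ x y : V, B x y = 1 ∧ spEnd g x ∈ Submodule.span F {x, y} ∧ spEnd g y ∈ Submodule.span F {x, y}

theorem hasPlane_of_ne_zero {g : Sp} {x y : V} (h : B x y ≠ 0)
    (hx : spEnd g x ∈ Submodule.span F {x, y}) (hy : spEnd g y ∈ Submodule.span F {x, y}) :
    HasPlane g := by
  have hspan : Submodule.span F {x, y} ≤ Submodule.span F {x, (B x y)⁻¹ • y} := by
    rw [Submodule.span_le, Set.insert_subset_iff, Set.singleton_subset_iff]
    exact ⟨Submodule.subset_span (by simp), Submodule.mem_span_pair.2 ⟨0, B x y, by simp [h]⟩⟩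
  refine ⟨x, (B x y)⁻¹ • y, by rw [form_smul_right, inv_mul_cancel₀ h], hspan hx, hspan ?_⟩
  rw [map_smul]
  exact Submodule.smul_mem _ _ hy

/-- An invariant non-degenerate two-dimensional subspace. -/
theorem hasPlane_of_subspace {g : Sp} (W : Submodule F V) (hW : finrank F W = 2)
    (hnd : ∀ x ∈ W, (∀ y ∈ W, B x y = 0) → x = 0) (hg : ∀ x ∈ W, spEnd g x ∈ W) : HasPlane g := by
  obtain ⟨x, hx, hx0⟩ : ∃ x ∈ W, x ≠ 0 := W.exists_mem_ne_zero_of_ne_bot fun h => by
    rw [h, finrank_bot] at hW; omega
  obtain ⟨y, hy, hxy⟩ : ∃ y ∈ W, B x y ≠ 0 := by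
    by_contra! h; exact hx0 (hnd x hx h)
  have hspan : W = Submodule.span F {x, y} := by
    refine (Submodule.eq_of_le_of_finrank_le (Submodule.span_le.2 ?_) ?_).symm
    · rintro _ (rfl | rfl) <;> assumption
    · have hli : LinearIndependent F ![x, y] := LinearIndependent.pair_iff.2 fun a b hab => by
        have h1 := congrArg (B x) hab
        have h2 := congrArg (fun v => B v y) hab
        simp only [form_add_right, form_smul_right, form_self, form_zero_right] at h1
        simp only [form_add_left, form_smul_left, form_self, form_zero_left] at h2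
        exact ⟨by simpa [hxy] using h2, by simpa [hxy] using h1⟩
      rw [hW, show ({x, y} : Set V) = Set.range ![x, y] by simp [Set.pair_comm, Matrix.range_cons,
        Matrix.range_empty], finrank_span_eq_card hli, Fintype.card_fin]
  exact hasPlane_of_ne_zero hxy (hspan ▸ hg x hx) (hspan ▸ hg y hy)

/-- Conjugacy through families with the same Gram matrix and the same action. -/
theorem exists_conj_of_families {g g' : Sp} {v v' : Fin 6 → V} (hli : LinearIndependent F v)
    (hli' : LinearIndependent F v') (hG : ∀ i j, B (v i) (v j) = B (v' i) (v' j))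
    (hact : ∀ i, ∃ c : Fin 6 → F, spEnd g (v i) = ∑ j, c j • v j ∧ spEnd g' (v' i) = ∑ j, c j • v' j) :
    ∃ h : Sp, h * g * h⁻¹ = g' := by
  obtain ⟨h, hh⟩ := Frames.exists_mulVec_family hli hli' hG
  let b : Basis (Fin 6) F V := basisOfLinearIndependentOfCardEqFinrank hli (by simp)
  have hb : ∀ i, b i = v i := fun i => by simp [b]
  refine ⟨h, mul_inv_eq_iff_eq_mul.2 (spEnd_ext fun x => ?_)⟩
  have key : spEnd h * spEnd g = spEnd g' * spEnd h := by
    refine b.ext fun i => ?_
    obtain ⟨c, hc, hc'⟩ := hact i
    rw [hb, Module.End.mul_apply, Module.End.mul_apply, hc, map_sum,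
      show spEnd h (v i) = v' i from hh i, hc']
    exact Finset.sum_congr rfl fun j _ => by rw [map_smul, show spEnd h (v j) = v' j from hh j]
  rw [map_mul, map_mul, key]

end CfsgLib.TwoClassCover.Six
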