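import Cfsg.Agent.TwoClassCover.Basic
import Cfsg.Agent.Classical.Unitary.Isotropic

/-!
Characteristic polynomials and invariant planes of unitary matrices.
-/

set_option autoImplicit false
set_option linter.style.haveILetI false

namespace CfsgLib.TwoClassCover

open Polynomial Module Matrix Cfsg CfsgLib.Unitary

universe u

variable {F : Type u} [Field F] [Fintype F] {n q : ℕ}

/-- A generator `α` with `α^(-q)` a conjugate lives in an extension of odd degree. -/
theorem selfConj_odd (hF : Fintype.card F = q ^ 2) {L : Type*} [Field L] [Algebra F L] [Finite L]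
    {α : L} (hgen : Algebra.adjoin F {α} = ⊤) (h : aeval ((α ^ q)⁻¹) (minpoly F α) = 0) :
    ∃ i : ℕ, (α ^ q)⁻¹ = α ^ (q ^ 2) ^ i ∧ finrank F L ∣ 2 * i + finrank F L - 1 := by
  haveI : Module.Finite F L := Module.Finite.of_finite
  let φ := FiniteField.frobeniusAlgEquivOfAlgebraic F L
  obtain ⟨σ, hσ⟩ := minpoly.exists_algEquiv_of_root' (K := F) (L := L) (x := (α ^ q)⁻¹) (y := α)
    (Algebra.IsAlgebraic.isAlgebraic α) h
  have hφ : ∀ x, φ x = x ^ q ^ 2 := fun x => by
    show x ^ Fintype.card F = _
    rw [hF]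
  have h2 : σ * σ = φ := by
    refine AlgEquiv.coe_toAlgHom_injective (AlgHom.ext_of_adjoin_eq_top hgen ?_)
    rintro x rfl
    show σ (σ x) = φ x
    rw [hσ, map_inv₀, map_pow, hσ, inv_pow, inv_inv, hφ, ← pow_mul, sq]
  obtain ⟨i, hi⟩ := (FiniteField.bijective_frobeniusAlgEquivOfAlgebraic_pow F L).2 σ
  simp only at hi
  refine ⟨i, ?_, ?_⟩
  · rw [← hσ, ← hi, AlgEquiv.coe_pow, FiniteField.coe_frobeniusAlgEquivOfAlgebraic_iterate, hF]
  · have hpos : 0 < finrank F L := Module.finrank_pos
    have h3 : φ ^ (2 * (i : ℕ) + (finrank F L - 1)) = 1 := by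
      rw [pow_add, show φ ^ (2 * (i : ℕ)) = φ by rw [two_mul, pow_add, hi, h2], ← pow_succ',
        Nat.sub_add_cancel hpos, ← FiniteField.orderOf_frobeniusAlgEquivOfAlgebraic F L,
        pow_orderOf_eq_one]
    have h4 := orderOf_dvd_of_pow_eq_one h3
    rw [FiniteField.orderOf_frobeniusAlgEquivOfAlgebraic] at h4
    rwa [Nat.add_sub_assoc hpos]

/-- An irreducible polynomial closed under `α ↦ α^(-q)` has odd degree. -/
theorem odd_natDegree (hF : Fintype.card F = q ^ 2) {f : F[X]} (hf : Irreducible f) (hm : f.Monic)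
    (h : ∀ (L : Type u) [Field L] [Algebra F L] (α : L), aeval α f = 0 → aeval ((α ^ q)⁻¹) f = 0) :
    Odd f.natDegree := by
  haveI : Fact (Irreducible f) := ⟨hf⟩
  haveI : Module.Finite F (AdjoinRoot f) := (AdjoinRoot.powerBasis hf.ne_zero).finite
  haveI : Finite (AdjoinRoot f) := Module.finite_of_finite F
  have hr : aeval (AdjoinRoot.root f) f = 0 := by rw [AdjoinRoot.aeval_eq, AdjoinRoot.mk_self]
  have hmin : minpoly F (AdjoinRoot.root f) = f :=
    (minpoly.eq_of_irreducible_of_monic hf hr hm).symm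
  obtain ⟨i, -, hi⟩ := selfConj_odd hF (α := AdjoinRoot.root f) AdjoinRoot.adjoinRoot_eq_top
    (by rw [hmin]; exact h _ _ hr)
  rw [(AdjoinRoot.powerBasis hf.ne_zero).finrank, AdjoinRoot.powerBasis_dim] at hi
  have := hf.natDegree_pos
  refine Nat.not_even_iff_odd.1 fun he => ?_
  have h2 : 2 ∣ 2 * i + f.natDegree - 1 := (even_iff_two_dvd.1 he).trans hi
  obtain ⟨k, hk⟩ := he
  omega

/-- The roots of the characteristic polynomial are closed under `α ↦ α^(-q)`. -/
theorem aeval_charpoly_inv (hF : Fintype.card F = q ^ 2) (A : ↥(SU n F q)) (L : Type*) [Field L]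
    [Algebra F L] (α : L) (h : aeval α (A : Matrix (Fin n) (Fin n) F).charpoly = 0) :
    aeval ((α ^ q)⁻¹) (A : Matrix (Fin n) (Fin n) F).charpoly = 0 := by
  obtain ⟨p, e, hp, hcp, -, rfl⟩ := exists_char hF
  haveI := Fact.mk hp
  haveI : CharP L p := charP_of_injective_algebraMap (algebraMap F L).injective p
  set M := (A : Matrix (Fin n) (Fin n) F)
  let G := M.map (algebraMap F L)
  let fr : L →+* L := iterateFrobenius L p e
  have hch : ∀ z : L, aeval z M.charpoly = (scalar (Fin n) z - G).det := fun z => by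
    rw [← Matrix.eval_charpoly, Matrix.charpoly_map, eval_map, aeval_def]
  have hGG : G.transpose.map fr * G = 1 := by
    have h1 := conjTranspose_mul_self hF ((preserves_iff_orthonorm_cols hF M).1 (mem_SU.1 A.2))
    have h2 := congrArg (fun N : Matrix (Fin n) (Fin n) F => N.map (algebraMap F L)) h1
    simp only [Matrix.map_mul, Matrix.map_one _ (map_zero _) (map_one _)] at h2
    rw [← h2]
    congr 1
    ext i j
    simp [G, fr, iterateFrobenius_def]
  rw [hch] at h ⊢
  have h0 : α ≠ 0 := by
    rintro rfl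
    rw [map_zero, zero_sub, Matrix.det_neg, mul_eq_zero] at h
    rcases h with h | h
    · exact absurd h (pow_ne_zero _ (neg_ne_zero.2 one_ne_zero))
    · rw [show G.det = algebraMap F L M.det from ((algebraMap F L).map_det M).symm] at h
      rw [show M.det = 1 from (A : Matrix.SpecialLinearGroup (Fin n) F).2, map_one] at h
      exact one_ne_zero h
  set β := α ^ p ^ e with hβ
  have h1 : (scalar (Fin n) β - G.transpose.map fr).det = 0 := by
    have h3 := congrArg fr h
    rw [map_zero, RingHom.map_det] at h3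
    rw [← h3, ← Matrix.det_transpose, Matrix.transpose_sub]
    congr 1
    have hfr : fr α = β := by simp [fr, iterateFrobenius_def, hβ]
    ext i j
    rcases eq_or_ne i j with rfl | hij
    · simp [map_sub, hfr]
    · simp [map_sub, hij]
  have h2 : (scalar (Fin n) β - G.transpose.map fr) * G = (-β) • (scalar (Fin n) β⁻¹ - G) := by
    rw [Matrix.sub_mul, hGG]
    ext i j
    rcases eq_or_ne i j with rfl | hij
    · simp only [Matrix.sub_apply, Matrix.smul_apply, smul_eq_mul, Matrix.scalar_apply,
        Matrix.diagonal_mul, Matrix.diagonal_apply_eq, Matrix.one_apply_eq]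
      have hβ0 : β ≠ 0 := pow_ne_zero _ h0
      field_simp
      ring
    · simp [Matrix.diagonal_mul, hij]
  have h4 := congrArg Matrix.det h2
  rw [Matrix.det_mul, h1, zero_mul, Matrix.det_smul] at h4
  exact (mul_eq_zero.1 h4.symm).resolve_left (pow_ne_zero _ (neg_ne_zero.2 (pow_ne_zero _ h0)))

/-- The stabiliser of a subspace. -/
def spaceSub (W : Submodule F (Fin n → F)) : Subgroup ↥(SU n F q) :=
  { carrier := {A | ∀ x ∈ W, sv A x ∈ W}
    one_mem' := fun x hx => by rwa [sv_one]
    mul_mem' := fun {A B} hA hB x hx => by rw [sv_mul]; exact hA _ (hB x hx)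
    inv_mem' := fun {A} hA x hx => by
      classical
      let T : W → W := fun y => ⟨sv A y, hA _ y.2⟩
      have hT : Function.Injective T := fun y z hyz => Subtype.ext <| by
        rw [← sv_inv_sv A (y : Fin n → F), ← sv_inv_sv A (z : Fin n → F)]
        exact congrArg (fun w : W => sv A⁻¹ (w : Fin n → F)) hyz
      obtain ⟨y, hy⟩ := Finite.surjective_of_injective hT ⟨x, hx⟩
      have hy' : sv A (y : Fin n → F) = x := congrArg Subtype.val hy
      rw [← hy', sv_inv_sv]
      exact y.2 }

theorem center_le_spaceSub (hF : Fintype.card F = q ^ 2) (hn : 2 ≤ n) (W : Submodule F (Fin n → F)) :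
    Subgroup.center ↥(SU n F q) ≤ spaceSub W := by
  intro A hA x hx
  obtain ⟨c, hc⟩ := (mem_center_SU_iff hF hn A).1 hA
  rw [show sv A x = c • x by
    rw [sv, hc]; funext i; simp [Matrix.mulVec_diagonal]]
  exact W.smul_mem c hx

/-- An element of `SU` as an endomorphism. -/
noncomputable def suEnd (A : ↥(SU n F q)) : Module.End F (Fin n → F) :=
  Matrix.toLin' (A : Matrix (Fin n) (Fin n) F)

omit [Fintype F] in
theorem suEnd_apply (A : ↥(SU n F q)) (x : Fin n → F) : suEnd A x = sv A x := rfl

/-- A quadratic relation on a non-degenerate two-dimensional section has a root. -/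
theorem exists_root_quadratic (hF : Fintype.card F = q ^ 2) (A : ↥(SU n F q))
    {N M : Submodule F (Fin n → F)} (hN : ∀ x ∈ N, sv A x ∈ N)
    (hNM : ∀ x ∈ N, ∀ y ∈ M, hermForm n F q x y = 0) (hM : ∀ x ∈ M, sv A x ∈ M)
    {w : Fin n → F} (hw : w ∈ M) (hgen : M ≤ N ⊔ Submodule.span F {w, sv A w})
    (hrad : ∀ z ∈ M, (∀ x ∈ M, hermForm n F q x z = 0) → z ∈ N)
    (hind : ∀ a b : F, a • w + b • sv A w ∈ N → a = 0 ∧ b = 0)
    {s d : F} (hrel : sv A (sv A w) + s • sv A w + d • w ∈ N) :
    ∃ r : F, r ^ 2 + s * r + d = 0 := by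
  set u := sv A w with hu
  set v := sv A u with hv
  set e := v + s • u + d • w with he
  have huM : u ∈ M := hM w hw
  have hvM : v ∈ M := hM u huM
  set z := w + s ^ q • u + d ^ q • v with hz
  have hzM : z ∈ M := M.add_mem (M.add_mem hw (M.smul_mem _ huM)) (M.smul_mem _ hvM)
  have hB : ∀ x, hermForm n F q x z =
      hermForm n F q x w + s * hermForm n F q x u + d * hermForm n F q x v := fun x => by
    rw [hz, herm_add_right hF, herm_add_right hF, herm_smul_right, herm_smul_right, pow_q_q hF,
      pow_q_q hF]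
  have hBw : hermForm n F q w z = 0 := by
    have h1 := hNM _ hrel v hvM
    rw [he, herm_add_left, herm_add_left, herm_smul_left, herm_smul_left] at h1
    have e1 : hermForm n F q v v = hermForm n F q w w := by rw [hv, sv_herm, hu, sv_herm]
    have e2 : hermForm n F q u v = hermForm n F q w u := by rw [hu, hv, sv_herm, hu]
    rw [hB, ← h1, e1, e2]
  have hBu : hermForm n F q u z = 0 := by
    have h1 := hNM _ (hN _ hrel) v hvM
    rw [he, sv_add, sv_add, sv_smul, sv_smul, herm_add_left, herm_add_left, herm_smul_left,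
      herm_smul_left, ← hu, ← hv] at h1
    rw [hB, ← h1]
    have e1 : hermForm n F q (sv A v) v = hermForm n F q v u := by rw [hv, sv_herm]
    have e2 : hermForm n F q v u = hermForm n F q u w := by rw [hv, hu, sv_herm]
    have e3 : hermForm n F q v v = hermForm n F q u u := by rw [hv, sv_herm]
    rw [e1, e2, e3]
  have hzN : z ∈ N := by
    refine hrad z hzM fun x hx => ?_
    obtain ⟨y, hy, t, ht, rfl⟩ := Submodule.mem_sup.1 (hgen hx)
    obtain ⟨a, b, rfl⟩ := Submodule.mem_span_pair.1 ht
    rw [herm_add_left, herm_add_left, herm_smul_left, herm_smul_left, hNM y hy z hzM, hBw, hBu]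
    ring
  have hmem : (1 - d ^ q * d) • w + (s ^ q - d ^ q * s) • u ∈ N := by
    have h1 := N.sub_mem hzN (N.smul_mem (d ^ q) hrel)
    rw [show (1 - d ^ q * d) • w + (s ^ q - d ^ q * s) • u = z - d ^ q • e by rw [hz, he]; module]
    exact h1
  obtain ⟨h1, h2⟩ := hind _ _ hmem
  by_contra! hroot
  let f : F[X] := X ^ 2 + C s * X + C d
  have hfm : f.Monic := by unfold f; monicity!
  have hfd : f.natDegree = 2 := by unfold f; compute_degree!
  have hfi : Irreducible f := by
    refine (Polynomial.Monic.irreducible_iff_roots_eq_zero_of_degree_le_three hfm (by omega) (by omega)).2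
      (Multiset.eq_zero_of_forall_notMem fun x hx => ?_)
    refine hroot x ?_
    simpa [f, IsRoot.def] using (Polynomial.mem_roots'.1 hx).2
  have hodd : Odd f.natDegree := by
    refine odd_natDegree hF hfi hfm fun L _ _ α hα => ?_
    obtain ⟨p, ex, hp, hcp, -, rfl⟩ := exists_char hF
    haveI := Fact.mk hp
    haveI : CharP L p := charP_of_injective_algebraMap (algebraMap F L).injective p
    have hα' : α ^ 2 + algebraMap F L s * α + algebraMap F L d = 0 := by simpa [f] using hα
    have h3 : (α ^ p ^ ex) ^ 2 + algebraMap F L (s ^ p ^ ex) * α ^ p ^ ex +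
        algebraMap F L (d ^ p ^ ex) = 0 := by
      have h4 := congrArg (fun y => y ^ p ^ ex) hα'
      simp only [add_pow_char_pow, mul_pow, zero_pow (pow_ne_zero ex hp.ne_zero)] at h4
      rw [map_pow, map_pow, ← h4, ← pow_mul α (p ^ ex) 2, mul_comm (p ^ ex) 2, pow_mul]
    have h5 := congrArg (algebraMap F L) h1
    have h6 := congrArg (algebraMap F L) h2
    simp only [map_sub, map_mul, map_one, map_zero] at h5 h6
    generalize algebraMap F L (s ^ p ^ ex) = S at h3 h6
    generalize algebraMap F L (d ^ p ^ ex) = D at h3 h5 h6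
    generalize α ^ p ^ ex = β at h3 ⊢
    have hβ : β ≠ 0 := by
      rintro rfl
      rw [show D = 0 by linear_combination h3] at h5
      simp at h5
    simp only [f, map_add, map_mul, map_pow, aeval_X, aeval_C]
    field_simp
    linear_combination algebraMap F L d * h3 + (1 + β * algebraMap F L s) * h5 -
      β * algebraMap F L d * h6
  rw [hfd] at hodd
  exact absurd hodd (by decide)

end CfsgLib.TwoClassCover
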